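import Mathlib
import Cfsg.Agent.LeechTriples.HS
import Cfsg.Agent.Leech.PairOrbits

/-! Configurations `(v, z, x, u)`: `v ⊥ z` and `x` of squared length 32, `x` with product 16 with
both, `u` of squared length 48 with products 24, 0, 24. -/

set_option autoImplicit false

namespace CfsgLib.LeechTriples

open Cfsg CfsgLib.Leech
open scoped Pointwise

theorem exists_axis_half {x : leechLattice} (hx : nrm x = 32) (h1 : ip Spor.leechU x = 16)
    (h2 : ip Spor.leechU' x = 16) : ∃ m ε, m ≠ none ∧ m ≠ some 0 ∧ (ε = 1 ∨ ε = -1) ∧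
      ∀ i, (x : GolayPt → ℤ) i = single none 4 i + ε * single m 4 i := by
  obtain ⟨e0, e1⟩ := base_values h1 h2
  have hax : ip (axisVec none) x = 8 * (x : GolayPt → ℤ) none := by
    have : ∀ i, (axisVec none : GolayPt → ℤ) i * (x : GolayPt → ℤ) i =
        single none (8 * (x : GolayPt → ℤ) none) i := fun i => by
      simp only [axisVec, single]; split_ifs with h
      · subst h; ring
      · ring
    simp only [ip, dotInt, this, sum_single]
  have hn : nrm (x + x - axisVec none) = 64 := by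
    rw [nrm_sub, nrm_add, ip_comm (x + x) (axisVec none), ip_add_right, hax, ip_self, hx,
      show nrm (axisVec none) = 64 from sqNorm_axisVec none]
    omega
  obtain ⟨m, hm⟩ := axis_class (u := x + x - axisVec none) hn
    ⟨x - axisVec none, by abel⟩
  obtain ⟨ε, hε, hv⟩ : ∃ ε : ℤ, (ε = 1 ∨ ε = -1) ∧
      ∀ i, 2 * (x : GolayPt → ℤ) i = single none 8 i + ε * single m 8 i := by
    rcases hm with hm | hm
    · exact ⟨1, Or.inl rfl, fun i => by
        have := congrFun (congrArg Subtype.val hm) i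
        simp [axisVec] at this; omega⟩
    · exact ⟨-1, Or.inr rfl, fun i => by
        have := congrFun (congrArg Subtype.val hm) i
        simp [axisVec] at this; omega⟩
  have hmn : m ≠ none := by
    rintro rfl
    have := hv none
    simp [single] at this
    omega
  have hm0 : m ≠ some 0 := by
    rintro rfl
    have := hv (some 0)
    simp [single] at this
    omega
  refine ⟨m, ε, hmn, hm0, hε, fun i => ?_⟩
  have := hv i
  rcases hε with rfl | rfl <;> simp only [single] at this ⊢ <;> split_ifs at this ⊢ <;> omega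

/-- The magnitudes of `u`. -/
def mag3 (m : GolayPt) (i : GolayPt) : ℤ := if i = none ∨ i = some 0 ∨ i = m then 3 else 1

/-- The relative values of `x`. -/
def xF (m : GolayPt) (i : GolayPt) : ℤ := if i = none ∨ i = m then 4 else 0

theorem sum_mag3 {m : GolayPt} (hmn : m ≠ none) (hm0 : m ≠ some 0) (f : GolayPt → ℤ) :
    ∑ i, mag3 m i * f i = ∑ i, f i + 2 * (f none + f (some 0) + f m) := by
  rw [sum_weighted f (mag3 m) {none, some 0, m} fun i hi => by simp_all [mag3],
    Finset.sum_insert (by simp [hmn.symm]), Finset.sum_insert (by simp [hm0.symm]),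
    Finset.sum_singleton]
  simp [mag3]
  ring

theorem mcl_shape {x u : leechLattice} (hx : nrm x = 32) (h1 : ip Spor.leechU x = 16)
    (h2 : ip Spor.leechU' x = 16) (hu : nrm u = 48) (g1 : ip Spor.leechU u = 24)
    (g2 : ip Spor.leechU' u = 0) (g3 : ip x u = 24) :
    ∃ m, m ≠ none ∧ m ≠ some 0 ∧ IsOdd u ∧ (∀ i, mag u i = mag3 m i) ∧
      (u : GolayPt → ℤ) none = 3 ∧ (u : GolayPt → ℤ) (some 0) = 3 ∧
      ∀ i, rel u x i = xF m i := by
  obtain ⟨m, ε, hmn, hm0, hε, hxv⟩ := exists_axis_half hx h1 h2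
  obtain ⟨e0, e1⟩ := base_values g1 g2
  have a0 : (u : GolayPt → ℤ) none = 3 := by omega
  have a1 : (u : GolayPt → ℤ) (some 0) = 3 := by omega
  have hodd : IsOdd u := by
    rcases parity_all u with h | h
    · have := h none; omega
    · exact h
  have hxm : (u : GolayPt → ℤ) m = 3 * ε := by
    have e : ∀ i, (x : GolayPt → ℤ) i * (u : GolayPt → ℤ) i =
        single none (4 * (u : GolayPt → ℤ) none) i + single m (ε * 4 * (u : GolayPt → ℤ) m) i := by
      intro i
      rw [hxv]
      simp only [single]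
      split_ifs <;> subst_vars <;> ring
    simp only [ip, dotInt, e, Finset.sum_add_distrib, sum_single] at g3
    rcases hε with rfl | rfl <;> omega
  have hsum : ∑ i ∈ ((Finset.univ.erase none).erase (some 0)).erase m,
      (u : GolayPt → ℤ) i ^ 2 = 21 := by
    have hm : m ∈ (Finset.univ.erase none).erase (some 0) := by simp [hmn, hm0]
    have h := nrm_split u
    rw [hu, a0, a1, restPts, ← Finset.add_sum_erase _ _ hm, hxm] at h
    rcases hε with rfl | rfl <;> norm_num at h <;> omega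
  have hone := all_eq_one_of_sum_le (S := ((Finset.univ.erase none).erase (some 0)).erase m)
    (fun i _ => one_le_sq_of_odd (hodd i)) (by
      have hm : m ∈ (Finset.univ.erase none).erase (some 0) := by simp [hmn, hm0]
      rw [Finset.card_erase_of_mem hm, ← restPts, card_restPts, restPts, hsum]
      norm_num)
  refine ⟨m, hmn, hm0, hodd, fun i => ?_, a0, a1, fun i => ?_⟩
  · rw [mag, mag3]
    split_ifs with h
    · rcases h with rfl | rfl | rfl
      · rw [a0]; norm_num
      · rw [a1]; norm_num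
      · rw [hxm]; rcases hε with rfl | rfl <;> norm_num
    · simp only [not_or] at h
      exact abs_eq (zero_le_one) |>.2 (sq_eq_one_iff.1 (hone i (by simp [h.1, h.2.1, h.2.2])))
  · rw [rel, xF, hxv]
    simp only [single]
    rcases eq_or_ne i none with rfl | hi
    · simp [hmn.symm, a0, sg]
    rcases eq_or_ne i m with rfl | hi'
    · rcases hε with rfl | rfl <;> simp [hi, hxm, sg]
    · simp [hi, hi']

theorem rel_mclU {u : leechLattice} (h0 : (u : GolayPt → ℤ) none = 3)
    (h1 : (u : GolayPt → ℤ) (some 0) = 3) (i : GolayPt) :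
    rel u Spor.leechU i = (if i = none then 4 else if i = some 0 then 4 else 0) ∧
      rel u Spor.leechU' i = (if i = none then 4 else if i = some 0 then -4 else 0) := by
  constructor <;> simp only [rel, sg, Spor.leechU, Spor.leechU', Spor.vecU, Spor.vecU'] <;>
    split_ifs <;> simp_all

/-- Signed permutations between standard configurations. -/
theorem mcl_mono {σ : Equiv.Perm GolayPt} (hσ : σ ∈ M24) (h0 : σ none = none)
    (h1 : σ (some 0) = some 0) {x u x' u' : leechLattice} {m m' : GolayPt} (hm : σ m = m')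
    (hodd : IsOdd u) (hmag : ∀ i, mag u i = mag3 m i) (a0 : (u : GolayPt → ℤ) none = 3)
    (a1 : (u : GolayPt → ℤ) (some 0) = 3) (hx : ∀ i, rel u x i = xF m i)
    (hmag' : ∀ i, mag u' i = mag3 m' i) (b0 : (u' : GolayPt → ℤ) none = 3)
    (b1 : (u' : GolayPt → ℤ) (some 0) = 3) (hx' : ∀ i, rel u' x' i = xF m' i) :
    ∃ g : Co0, g • Spor.leechU = Spor.leechU ∧ g • Spor.leechU' = Spor.leechU' ∧ g • x = x' ∧
      g • u = u' ∧ ∀ y i, rel u' (g • y) (σ i) = rel u y i := by
  have hσ0 : ∀ i, σ i = none ↔ i = none := fun i => by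
    conv_lhs => rw [← h0]
    exact σ.injective.eq_iff
  have hσ1 : ∀ i, σ i = some 0 ↔ i = some 0 := fun i => by
    conv_lhs => rw [← h1]
    exact σ.injective.eq_iff
  have hσm : ∀ i, σ i = m' ↔ i = m := fun i => by
    conv_lhs => rw [← hm]
    exact σ.injective.eq_iff
  obtain ⟨g, hg, hrel⟩ := exists_mono hσ u u' hodd fun i => by
    rw [hmag', hmag]; simp only [mag3, hσ0, hσ1, hσm]
  refine ⟨g, ?_, ?_, ?_, hg, hrel⟩ <;> refine rel_inj (u := u') fun j => ?_ <;>
    obtain ⟨i, rfl⟩ := σ.surjective j <;> rw [hrel]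
  · rw [(rel_mclU a0 a1 i).1, (rel_mclU b0 b1 (σ i)).1]; simp only [hσ0, hσ1]
  · rw [(rel_mclU a0 a1 i).2, (rel_mclU b0 b1 (σ i)).2]; simp only [hσ0, hσ1]
  · rw [hx, hx', xF, xF]; simp only [hσ0, hσm]

/-- The conditions on a configuration. -/
def IsQuad (v z x u : leechLattice) : Prop :=
  nrm v = 32 ∧ nrm z = 32 ∧ nrm x = 32 ∧ nrm u = 48 ∧ ip v z = 0 ∧ ip v x = 16 ∧ ip z x = 16 ∧
    ip v u = 24 ∧ ip z u = 0 ∧ ip x u = 24

theorem IsQuad.smul {v z x u : leechLattice} (h : IsQuad v z x u) (g : Co0) :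
    IsQuad (g • v) (g • z) (g • x) (g • u) := by
  simpa only [IsQuad, nrm_smul, ip_smul] using h

/-- Configurations form one orbit. -/
theorem exists_quad {v z x u v' z' x' u' : leechLattice} (h : IsQuad v z x u)
    (h' : IsQuad v' z' x' u') :
    ∃ g : Co0, g • v = v' ∧ g • z = z' ∧ g • x = x' ∧ g • u = u' := by
  obtain ⟨g, g1, g2⟩ := exists_pair_base v z h.1 h.2.1 h.2.2.2.2.1
  obtain ⟨k, k1, k2⟩ := exists_pair_base v' z' h'.1 h'.2.1 h'.2.2.2.2.1
  have hs := h.smul g
  have hs' := h'.smul k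
  rw [g1, g2] at hs
  rw [k1, k2] at hs'
  obtain ⟨-, -, p3, p4, -, p6, p7, p8, p9, p10⟩ := hs
  obtain ⟨-, -, q3, q4, -, q6, q7, q8, q9, q10⟩ := hs'
  obtain ⟨m, hmn, hm0, hodd, hmag, a0, a1, hx⟩ := mcl_shape p3 p6 p7 p4 p8 p9 p10
  obtain ⟨m', hmn', hm0', -, hmag', b0, b1, hx'⟩ := mcl_shape q3 q6 q7 q4 q8 q9 q10
  obtain ⟨σ, hσ, hσf⟩ := M24Orbits.exists_map_tuple_list (by norm_num : 3 ≤ 5)
    (x := ![none, some 0, m]) (y := ![none, some 0, m'])
    (by intro p q e; fin_cases p <;> fin_cases q <;> simp_all [eq_comm])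
    (by intro p q e; fin_cases p <;> fin_cases q <;> simp_all [eq_comm])
  obtain ⟨j, j1, j2, j3, j4, -⟩ := mcl_mono hσ (hσf 0) (hσf 1) (hσf 2) hodd hmag a0 a1 hx
    hmag' b0 b1 hx'
  refine ⟨k⁻¹ * j * g, ?_, ?_, ?_, ?_⟩ <;> simp only [mul_smul]
  · rw [g1, j1, ← k1, inv_smul_smul]
  · rw [g2, j2, ← k2, inv_smul_smul]
  · rw [j3, inv_smul_smul]
  · rw [j4, inv_smul_smul]

/-- The conditions on a triple. -/
def IsTriple (v x u : leechLattice) : Prop :=
  nrm v = 32 ∧ nrm x = 32 ∧ nrm u = 48 ∧ ip v x = 16 ∧ ip v u = 24 ∧ ip x u = 24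

theorem exists_quad_std (u : leechLattice) (hu : nrm u = 48) (h1 : ip Spor.leechU u = 24)
    (h2 : ip w16 u = 24) : ∃ z, IsQuad Spor.leechU z w16 u := by
  rw [ip_leechU] at h1
  rw [w16, ip_fourPair] at h2
  have base : ∀ z, nrm z = 32 → ip Spor.leechU z = 0 → ip z w16 = 16 → ip z u = 0 →
      IsQuad Spor.leechU z w16 u := fun z z1 z2 z3 z4 =>
    ⟨nrm_leechU, z1, by rw [w16, nrm_fourPair (by simp)]; norm_num, hu, z2,
      by rw [ip_leechU, w16, fourPair_apply, fourPair_apply]; simp [single, (by decide : ¬ (0 : ZMod 23) = 1)], z3,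
      by rw [ip_leechU]; omega, z4, by rw [w16, ip_fourPair]; omega⟩
  have hU' : ip Spor.leechU' w16 = 16 := by
    rw [ip_leechU', w16, fourPair_apply, fourPair_apply]; simp [single, (by decide : ¬ (0 : ZMod 23) = 1)]
  set t := (u : GolayPt → ℤ) (some 0) with ht
  by_cases h3 : t = 3
  · exact ⟨Spor.leechU', base _ nrm_leechU' ip_leechU_leechU' hU'
      (by rw [ip_leechU']; omega)⟩
  have hsum : ∑ i ∈ (restPts.erase (some 1)), (u : GolayPt → ℤ) i ^ 2 =
      48 - (6 - t) ^ 2 - 2 * t ^ 2 := by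
    have hm : (some 1 : GolayPt) ∈ restPts := by rw [mem_restPts]; decide
    have h := nrm_split u
    rw [hu, ← Finset.add_sum_erase _ _ hm, ← ht,
      show (u : GolayPt → ℤ) none = 6 - t by omega,
      show (u : GolayPt → ℤ) (some 1) = t by omega] at h
    linarith
  have hcard : (restPts.erase (some 1)).card = 21 := by decide +kernel
  have hnn : (0 : ℤ) ≤ ∑ i ∈ (restPts.erase (some 1)), (u : GolayPt → ℤ) i ^ 2 :=
    Finset.sum_nonneg fun i _ => sq_nonneg _
  have ht0 : 0 ≤ t ∧ t ≤ 4 := by constructor <;> nlinarith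
  obtain ⟨b, hb, hbv⟩ : ∃ b ∈ restPts.erase (some 1),
      (u : GolayPt → ℤ) b = t ∨ (u : GolayPt → ℤ) b = -t := by
    rcases odd_or_even u with ⟨a, ha, hc⟩ | hodd
    · have he := ha (some 0)
      rw [← ht] at he
      have e0 := ha none
      have e1 := ha (some 1)
      have hrest : ∑ i ∈ (restPts.erase (some 1)), (u : GolayPt → ℤ) i ^ 2 =
          4 * ∑ i ∈ (restPts.erase (some 1)), a i ^ 2 := by
        rw [Finset.mul_sum]; exact Finset.sum_congr rfl fun i _ => by rw [ha i]; ring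
      set S := support₂ (red a) with hS
      set R := restPts.erase (some 1) with hR
      have hSR : ((S ∩ R).card : ℤ) ≤ ∑ i ∈ R, a i ^ 2 := by
        calc ((S ∩ R).card : ℤ) = ∑ _i ∈ S ∩ R, (1 : ℤ) := by simp
          _ ≤ ∑ i ∈ S ∩ R, a i ^ 2 := Finset.sum_le_sum fun i hi => one_le_sq_of_odd
              ((mem_support₂_red a i).1 (Finset.mem_inter.1 hi).1)
          _ ≤ _ := Finset.sum_le_sum_of_subset_of_nonneg Finset.inter_subset_right
              fun i _ _ => sq_nonneg _
      obtain ⟨k, hk⟩ : ∃ k, a k % 2 = 1 := by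
        by_cases h : a none % 2 = 1
        · exact ⟨none, h⟩
        · exact ⟨some 0, by omega⟩
      have h8 := eight_le_code (mem_supports hc rfl) ⟨k, (mem_support₂_red a k).2 hk⟩
      rw [← hS] at h8
      have hout : S ⊆ insert none (insert (some 0) (insert (some 1) (S ∩ R))) := fun i hi => by
        simp only [Finset.mem_insert, Finset.mem_inter, hR, Finset.mem_erase, mem_restPts]
        tauto
      have hcs := Finset.card_le_card hout
      have i1 := Finset.card_insert_le none (insert (some 0) (insert (some 1) (S ∩ R)))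
      have i2 := Finset.card_insert_le (some 0) (insert (some 1) (S ∩ R))
      have i3 := Finset.card_insert_le (some 1) (S ∩ R)
      have ht2 : t = 2 := by
        obtain ⟨l, r⟩ := ht0
        interval_cases t <;> norm_num at hsum <;> omega
      rw [ht2] at hsum
      norm_num at hsum
      obtain ⟨b, hb⟩ := Finset.card_pos.1 (show 0 < (S ∩ R).card by omega)
      obtain ⟨hbS, hbR⟩ := Finset.mem_inter.1 hb
      have hb1 : a b ^ 2 = 1 := by
        have hle : ∑ i ∈ S ∩ R, a i ^ 2 ≤ ∑ i ∈ R, a i ^ 2 :=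
          Finset.sum_le_sum_of_subset_of_nonneg Finset.inter_subset_right fun i _ _ => sq_nonneg _
        have hsplit := Finset.add_sum_erase (S ∩ R) (fun i => a i ^ 2) hb
        have hge : ((S ∩ R).erase b).card ≤ ∑ i ∈ (S ∩ R).erase b, a i ^ 2 := by
          calc (((S ∩ R).erase b).card : ℤ) = ∑ _i ∈ (S ∩ R).erase b, (1 : ℤ) := by simp
            _ ≤ _ := Finset.sum_le_sum fun i hi => one_le_sq_of_odd
              ((mem_support₂_red a i).1 (Finset.mem_inter.1 (Finset.mem_of_mem_erase hi)).1)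
        rw [Finset.card_erase_of_mem hb] at hge
        have hab : a b % 2 = 1 := (mem_support₂_red a b).1 hbS
        have h2 : a b ^ 2 ≤ 2 := by omega
        have : -1 ≤ a b ∧ a b ≤ 1 := ⟨by nlinarith, by nlinarith⟩
        rcases (show a b = 1 ∨ a b = -1 by omega) with e | e <;> rw [e] <;> norm_num
      refine ⟨b, hbR, ?_⟩
      rw [ha b, ht2]
      rcases sq_eq_one_iff.1 hb1 with e | e <;> omega
    · have ht1 : t = 1 := by
        have := hodd (some 0)
        omega
      rw [ht1] at hsum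
      norm_num at hsum
      obtain ⟨b, hb⟩ := Finset.card_pos.1
        (show 0 < (restPts.erase (some 1)).card by omega)
      refine ⟨b, hb, ?_⟩
      rw [ht1]
      exact sq_eq_one_iff.1 (all_eq_one_of_sum_le (S := restPts.erase (some 1))
        (fun i _ => one_le_sq_of_odd (hodd i)) (by rw [hcard]; push_cast; omega) b hb)
  obtain ⟨hb1, hbR⟩ := Finset.mem_erase.1 hb
  obtain ⟨hbn, hb0⟩ := mem_restPts.1 hbR
  obtain ⟨s, hs, hsv⟩ : ∃ s : ℤ, (s = 1 ∨ s = -1) ∧ t + s * (u : GolayPt → ℤ) b = 0 := by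
    rcases hbv with e | e
    · exact ⟨-1, Or.inr rfl, by omega⟩
    · exact ⟨1, Or.inl rfl, by omega⟩
  refine ⟨fourPair (some 1) b 1 s (by omega), base _ ?_ ?_ ?_ ?_⟩
  · rw [nrm_fourPair (Ne.symm hb1)]; rcases hs with rfl | rfl <;> norm_num
  · rw [ip_comm, ip_fourPair]
    simp [Spor.leechU, Spor.vecU, hbn, hb0, (by decide : ¬ (1 : ZMod 23) = 0)]
  · rw [ip_fourPair, w16, fourPair_apply, fourPair_apply]
    simp [single, hbn, hb1]
  · rw [ip_fourPair]; linarith

theorem exists_quad_of_triple {v x u : leechLattice} (h : IsTriple v x u) :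
    ∃ z, IsQuad v z x u := by
  obtain ⟨h1, h2, h3, h4, h5, h6⟩ := h
  obtain ⟨g, g1, g2⟩ := exists_pair16_base v x h1 h2 h4
  obtain ⟨z, hz⟩ := exists_quad_std (g • u) (by rw [nrm_smul, h3]) (by rw [← g1, ip_smul, h5])
    (by rw [← g2, ip_smul, h6])
  refine ⟨g⁻¹ • z, ?_⟩
  have := hz.smul g⁻¹
  rwa [← g1, ← g2, inv_smul_smul, inv_smul_smul, inv_smul_smul] at this

/-- Triples form one orbit. -/
theorem exists_mclTriple {v x u v' x' u' : leechLattice} (h : IsTriple v x u)
    (h' : IsTriple v' x' u') : ∃ g : Co0, g • v = v' ∧ g • x = x' ∧ g • u = u' := by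
  obtain ⟨z, hz⟩ := exists_quad_of_triple h
  obtain ⟨z', hz'⟩ := exists_quad_of_triple h'
  obtain ⟨g, g1, -, g3, g4⟩ := exists_quad hz hz'
  exact ⟨g, g1, g3, g4⟩

end CfsgLib.LeechTriples
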