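import Mathlib
import Cfsg.Agent.M24Orbits.Transitive

/-! The permutations fixing an octad and two of its points are transitive on the outside. -/

set_option autoImplicit false

namespace CfsgLib.LeechTriples

open Cfsg CfsgLib.Golay CfsgLib.Mathieu CfsgLib.M24Orbits
open scoped Pointwise

/-- Points reached from `5` in `n` steps. -/
def outReach : ℕ → List ℕ
  | 0 => [5]
  | n + 1 => outReach n ++ Data.pqOctGens.flatMap fun t => (outReach n).map (app t)

theorem outReach_spec (n : ℕ) : ∀ i ∈ outReach n, ∃ g ∈ stabM O₀ ⊓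
    MulAction.stabilizer _ P₀ ⊓ MulAction.stabilizer _ Q₀,
    p2i ((g : Equiv.Perm GolayPt) • X₀) = i := by
  induction n with
  | zero =>
    intro i hi
    rw [outReach, List.mem_singleton] at hi
    exact ⟨1, one_mem _, by rw [one_smul, hi]; decide⟩
  | succ n ih =>
    intro i hi
    rw [outReach, List.mem_append, List.mem_flatMap] at hi
    rcases hi with hi | ⟨t, ht, hi⟩
    · exact ih i hi
    · obtain ⟨j, hj, rfl⟩ := List.mem_map.1 hi
      obtain ⟨g, hg, e⟩ := ih j hj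
      obtain ⟨k, hk, hkt⟩ := pqOct_setup.rep t ht
      refine ⟨k * g, mul_mem hk hg, ?_⟩
      have h := encP_smul k (g • X₀)
      simp only [encP, actP, List.map_cons, List.map_nil, hkt, e] at h
      rw [mul_smul]
      exact List.head_eq_of_cons_eq h

theorem outReach_all : ∀ p : GolayPt, p ∉ O₀ → p2i p ∈ outReach 5 := by decide +kernel

/-- `M24` is transitive on octads with two points in and one out. -/
theorem exists_map_octad_two_out {p q r : GolayPt} (hpq : p ≠ q) {o : Finset GolayPt}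
    (ho : o ∈ octads) (hp : p ∈ o) (hq : q ∈ o) (hr : r ∉ o) :
    ∃ k ∈ M24, k • O₀ = o ∧ k • P₀ = p ∧ k • Q₀ = q ∧ k • X₀ = r := by
  obtain ⟨k, hk, k1, k2, k3⟩ := exists_map_octad_two hpq ho hp hq
  have h : k⁻¹ • r ∉ O₀ := by rw [Finset.inv_smul_mem_iff, k1]; exact hr
  obtain ⟨g, hg, e⟩ := outReach_spec 5 _ (outReach_all _ h)
  have e' : g • X₀ = k⁻¹ • r := by rw [← i2p_p2i (g • X₀), e, i2p_p2i]
  refine ⟨k * g, M24.mul_mem hk hg.1.1.1, ?_, ?_, ?_, ?_⟩
  · rw [mul_smul, smul_eq_self hg.1.1, k1]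
  · rw [mul_smul, MulAction.mem_stabilizer_iff.1 hg.1.2, k2]
  · rw [mul_smul, MulAction.mem_stabilizer_iff.1 hg.2, k3]
  · rw [mul_smul, e', smul_inv_smul]

/-- A permutation between two such configurations. -/
theorem exists_perm_two_out {p q r : GolayPt} (hpq : p ≠ q) {o : Finset GolayPt}
    (ho : o ∈ octads) (hp : p ∈ o) (hq : q ∈ o) (hr : r ∉ o) {p' q' r' : GolayPt} (hpq' : p' ≠ q')
    {o' : Finset GolayPt} (ho' : o' ∈ octads) (hp' : p' ∈ o') (hq' : q' ∈ o') (hr' : r' ∉ o') :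
    ∃ σ ∈ M24, σ p = p' ∧ σ q = q' ∧ σ r = r' ∧ σ • o = o' := by
  obtain ⟨k, hk, k1, k2, k3, k4⟩ := exists_map_octad_two_out hpq ho hp hq hr
  obtain ⟨l, hl, l1, l2, l3, l4⟩ := exists_map_octad_two_out hpq' ho' hp' hq' hr'
  refine ⟨l * k⁻¹, M24.mul_mem hl (inv_mem hk), ?_, ?_, ?_, ?_⟩
  · show l (k⁻¹ • p) = p'
    rw [← k2, inv_smul_smul]; exact l2
  · show l (k⁻¹ • q) = q'
    rw [← k3, inv_smul_smul]; exact l3
  · show l (k⁻¹ • r) = r'
    rw [← k4, inv_smul_smul]; exact l4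
  · rw [mul_smul, ← k1, inv_smul_smul, l1]

end CfsgLib.LeechTriples
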