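import Mathlib
import Cfsg.Agent.LeechTriples.McL
import Cfsg.Agent.LeechTriples.HSPoints
import Cfsg.Agent.LeechTriples.Perm

/-! The 275 points of a McLaughlin configuration. -/

set_option autoImplicit false

namespace CfsgLib.LeechTriples

open Cfsg CfsgLib.Leech
open scoped Pointwise symmDiff

/-- Octads through three points. -/
noncomputable def octsIn (p q r : GolayPt) : Finset (Finset GolayPt) :=
  Golay.octadSets.filter (({p, q, r} : Finset GolayPt) ⊆ ·)

/-- Octads through two points avoiding a third. -/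
noncomputable def octsOut (p q r : GolayPt) : Finset (Finset GolayPt) :=
  (Golay.octadSets.filter (({p, q} : Finset GolayPt) ⊆ ·)).filter (r ∉ ·)

theorem mem_octsIn {p q r : GolayPt} {O : Finset GolayPt} :
    O ∈ octsIn p q r ↔ O ∈ octads ∧ p ∈ O ∧ q ∈ O ∧ r ∈ O := by
  simp [octsIn, Golay.mem_octadSets, Finset.insert_subset_iff]

theorem mem_octsOut {p q r : GolayPt} {O : Finset GolayPt} :
    O ∈ octsOut p q r ↔ O ∈ octads ∧ p ∈ O ∧ q ∈ O ∧ r ∉ O := by
  simp [octsOut, Golay.mem_octadSets, Finset.insert_subset_iff, and_assoc]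

theorem card_octsIn {p q r : GolayPt} (h1 : p ≠ q) (h2 : p ≠ r) (h3 : q ≠ r) :
    (octsIn p q r).card = 21 :=
  Golay.octads_through_three _ (by simp [h1, h2, h3])

theorem card_octsOut {p q r : GolayPt} (h1 : p ≠ q) (h2 : p ≠ r) (h3 : q ≠ r) :
    (octsOut p q r).card = 56 := by
  have h := Finset.card_filter_add_card_filter_not
    (s := Golay.octadSets.filter (({p, q} : Finset GolayPt) ⊆ ·)) (fun O => r ∈ O)
  have hin : ((Golay.octadSets.filter (({p, q} : Finset GolayPt) ⊆ ·)).filter (r ∈ ·)).card = 21 := by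
    rw [← card_octsIn h1 h2 h3]
    refine congrArg Finset.card (Finset.ext fun O => ?_)
    simp [mem_octsIn, Golay.mem_octadSets, Finset.insert_subset_iff, and_assoc]
  rw [hin, Golay.octads_through_two _ (Finset.card_pair h1)] at h
  rw [octsOut]
  omega

/-- Values `3, 1, 1` and minus signs on an octad. -/
def mF3 (i j m : GolayPt) (H : Finset GolayPt) (r : GolayPt) : ℤ :=
  if r = i then 3 else if r = j ∨ r = m then 1 else if r ∈ H then -1 else 1

/-- Values on an octad with one minus sign. -/
def mF2 (e : (_ : Finset GolayPt) × GolayPt) (r : GolayPt) : ℤ :=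
  if r = e.2 then -2 else if r ∈ e.1 then 2 else 0

/-- The indices for one minus sign. -/
noncomputable def bIdx (m : GolayPt) : Finset ((_ : Finset GolayPt) × GolayPt) :=
  (octsIn none (some 0) m).sigma fun O => O \ {none, some 0, m}

theorem mem_bIdx {m : GolayPt} {e : (_ : Finset GolayPt) × GolayPt} :
    e ∈ bIdx m ↔ e.1 ∈ octsIn none (some 0) m ∧ e.2 ∈ e.1 ∧ e.2 ≠ none ∧ e.2 ≠ some 0 ∧
      e.2 ≠ m := by
  simp [bIdx, and_assoc]

theorem card_bIdx {m : GolayPt} (hmn : m ≠ none) (hm0 : m ≠ some 0) : (bIdx m).card = 105 := by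
  rw [bIdx, Finset.card_sigma, Finset.sum_congr rfl fun O hO => show
    (O \ {none, some 0, m}).card = 5 by
      obtain ⟨hO', a, b, c⟩ := mem_octsIn.1 hO
      rw [Finset.card_sdiff_of_subset (by simp [Finset.insert_subset_iff, a, b, c]), hO'.2]
      simp [hmn.symm, hm0.symm],
    Finset.sum_const, card_octsIn (by simp) hmn.symm hm0.symm]
  rfl

section facts

variable {i j m : GolayPt} {H : Finset GolayPt} (hij : i ≠ j) (him : i ≠ m) (hjm : j ≠ m)
  (hH : H ∈ octsOut j m i)
include hij him hjm hH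

theorem mF3_values : mF3 i j m H i = 3 ∧ mF3 i j m H j = 1 ∧ mF3 i j m H m = 1 := by
  simp [mF3, hij.symm, him.symm]

theorem sum_mF3 : ∑ r, mF3 i j m H r = 14 := by
  obtain ⟨hH', hj, hm, hi⟩ := mem_octsOut.1 hH
  have hk : ∀ k, k ≠ i → mF3 i j m H k = 1 ∨ mF3 i j m H k = -1 := fun k hk => by
    simp only [mF3, if_neg hk]; split_ifs <;> simp
  have hN : negSet (Finset.univ.erase i) (mF3 i j m H) = H \ {j, m} := by
    ext r
    rw [negSet, Finset.mem_filter]
    simp only [Finset.mem_erase, Finset.mem_univ, and_true,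
      Finset.mem_sdiff, Finset.mem_insert, Finset.mem_singleton, mF3]
    constructor
    · rintro ⟨h1, h2⟩
      rw [if_neg h1] at h2
      split_ifs at h2 with p q <;> first | exact ⟨q, p⟩ | omega
    · rintro ⟨h1, h2⟩
      have : r ≠ i := fun e => hi (e ▸ h1)
      simp [this, h1, h2]
  rw [sum_three hk, (mF3_values hij him hjm hH).1, hN,
    Finset.card_sdiff_of_subset (by simp [Finset.insert_subset_iff, hj, hm]), hH'.2,
    Finset.card_pair hjm]
  norm_num

theorem sum_sq_mF3 : ∑ r, mF3 i j m H r ^ 2 = 32 := by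
  rw [← Finset.add_sum_erase Finset.univ _ (Finset.mem_univ i),
    Finset.sum_congr rfl fun r hr => show mF3 i j m H r ^ 2 = 1 by
      simp only [mF3, if_neg (Finset.mem_erase.1 hr).1]; split_ifs <;> norm_num,
    (mF3_values hij him hjm hH).1, Finset.sum_const,
    Finset.card_erase_of_mem (Finset.mem_univ i)]
  simp

end facts

theorem sum_mF2 {m : GolayPt} {e : (_ : Finset GolayPt) × GolayPt} (he : e ∈ bIdx m) :
    ∑ r, mF2 e r = 12 ∧ ∑ r, mF2 e r ^ 2 = 32 := by
  obtain ⟨hO, hp, -, -, -⟩ := mem_bIdx.1 he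
  obtain ⟨hO', -, -, -⟩ := mem_octsIn.1 hO
  have h0 : ∀ r, r ∉ e.1 → mF2 e r = 0 := fun r hr => by
    rw [mF2, if_neg fun e' : r = e.2 => hr (e' ▸ hp), if_neg hr]
  have hv : ∀ r ∈ e.1, mF2 e r = 2 ∨ mF2 e r = -2 := fun r hr => by
    rw [mF2, if_pos hr]; split_ifs <;> simp
  have hN : negSet e.1 (mF2 e) = {e.2} := by
    ext r
    rw [negSet, Finset.mem_filter]
    simp only [Finset.mem_singleton, mF2]
    constructor
    · rintro ⟨h1, h2⟩
      rw [if_pos h1] at h2
      by_contra h
      rw [if_neg h] at h2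
      omega
    · rintro rfl
      exact ⟨hp, by simp⟩
  refine ⟨by rw [sum_oct hO' hv h0, hN]; rfl, ?_⟩
  rw [← Finset.sum_subset (Finset.subset_univ e.1) fun r _ hr => by rw [h0 r hr]; norm_num,
    sum_sq_const hv, hO'.2]
  norm_num

/-- The points. -/
def mclPts (u : leechLattice) : Set leechLattice :=
  {y | nrm y = 32 ∧ ip Spor.leechU y = 16 ∧ ip u y = 24}

/-- Five kinds of points: one minus sign. -/
def mclB (u : leechLattice) (m : GolayPt) : Set leechLattice :=
  {y | ∃ e ∈ bIdx m, ∀ r, rel u y r = mF2 e r}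

/-- Kind with `3` first. -/
def mclC (u : leechLattice) (m : GolayPt) : Set leechLattice :=
  {y | ∃ H ∈ octsOut (some 0) m none, ∀ r, rel u y r = mF3 none (some 0) m H r}

/-- Kind with all plus. -/
def mclD (u : leechLattice) (m : GolayPt) : Set leechLattice :=
  {y | ∃ O ∈ octsOut none (some 0) m, ∀ r, rel u y r = hsF2 O r}

/-- Kind with `3` second. -/
def mclE (u : leechLattice) (m : GolayPt) : Set leechLattice :=
  {y | ∃ H ∈ octsOut none m (some 0), ∀ r, rel u y r = mF3 (some 0) none m H r}

/-- A standard configuration. -/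
structure Std (x u : leechLattice) (m : GolayPt) : Prop where
  hmn : m ≠ none
  hm0 : m ≠ some 0
  odd : IsOdd u
  mag_eq : ∀ i, mag u i = mag3 m i
  a0 : (u : GolayPt → ℤ) none = 3
  a1 : (u : GolayPt → ℤ) (some 0) = 3
  xrel : ∀ i, rel u x i = xF m i
  nu : nrm u = 48

theorem std_of_quad {x u : leechLattice} (h : IsQuad Spor.leechU Spor.leechU' x u) :
    ∃ m, Std x u m := by
  obtain ⟨-, -, p3, p4, -, p6, p7, p8, p9, p10⟩ := h
  obtain ⟨m, hmn, hm0, hodd, hmag, a0, a1, hx⟩ := mcl_shape p3 p6 p7 p4 p8 p9 p10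
  exact ⟨m, hmn, hm0, hodd, hmag, a0, a1, hx, p4⟩

section

variable {x u : leechLattice} {m : GolayPt} (S : Std x u m)
include S

theorem mcl_ip (y : leechLattice) :
    ip Spor.leechU y = 4 * (rel u y none + rel u y (some 0)) ∧
      ip Spor.leechU' y = 4 * (rel u y none - rel u y (some 0)) ∧
        ip u y = ∑ r, rel u y r + 2 * (rel u y none + rel u y (some 0) + rel u y m) ∧
          ip x y = 4 * (rel u y none + rel u y m) := by
  refine ⟨?_, ?_, ?_, ?_⟩
  · rw [ip_leechU, rel, rel, S.a0, S.a1]; norm_num [sg]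
  · rw [ip_leechU', rel, rel, S.a0, S.a1]; norm_num [sg]
  · rw [ip_rel, ← sum_mag3 S.hmn S.hm0]; simp only [S.mag_eq]
  · rw [ip_rel_rel u]
    simp only [S.xrel, xF, ite_mul, zero_mul]
    rw [← Finset.sum_filter, show (Finset.univ.filter fun r : GolayPt => r = none ∨ r = m) =
      {none, m} by ext r; simp, Finset.sum_pair S.hmn.symm]
    ring

theorem mcl_class {y : leechLattice} (hy : y ∈ mclPts u) :
    y = x ∨ y = x - Spor.leechU' ∨ y ∈ mclB u m ∨ y ∈ mclC u m ∨ y ∈ mclD u m ∨ y ∈ mclE u m := by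
  obtain ⟨hy32, hyU, hyu⟩ := hy
  obtain ⟨e1, -, e3, -⟩ := mcl_ip S y
  rw [e1] at hyU
  rw [e3] at hyu
  have hA : ∀ r, rel u (x - Spor.leechU') r = if r = some 0 ∨ r = m then 4 else 0 := fun r => by
    rw [rel_sub, S.xrel, (rel_mclU S.a0 S.a1 r).2, xF]
    rcases eq_or_ne r none with rfl | h
    · simp [S.hmn.symm]
    rcases eq_or_ne r (some 0) with rfl | h'
    · simp [h, S.hm0.symm]
    · simp [h, h']
  set f := rel u y with hf
  have hsh : IsTwo f ∨ IsOct f ∨ IsThree f := shape32 u y hy32
  rcases hsh with ⟨i, j, hij, hi, hj, hk⟩ | ⟨O, hO, hOv, hO0⟩ | ⟨i, hi, hk⟩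
  · have hs := sum_two hij hk
    have hz : ∀ r, r ≠ i → r ≠ j → f r = 0 := hk
    rcases eq_or_ne i none with rfl | hin <;> rcases eq_or_ne j none with rfl | hjn
    · exact absurd rfl hij
    · have hj0 : j ≠ some 0 := by rintro rfl; omega
      have h0 := hz (some 0) (by simp) hj0.symm
      rcases eq_or_ne j m with rfl | hjm
      · left
        refine rel_inj (u := u) fun r => ?_
        rw [S.xrel, xF]
        split_ifs with h
        · rcases h with rfl | rfl <;> (show f _ = 4) <;> omega
        · simp only [not_or] at h; exact hz r h.1 h.2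
      · have := hz m S.hmn hjm.symm
        omega
    · have hi0 : i ≠ some 0 := by rintro rfl; omega
      have h0 := hz (some 0) hi0.symm (by simp)
      rcases eq_or_ne i m with rfl | him
      · left
        refine rel_inj (u := u) fun r => ?_
        rw [S.xrel, xF]
        split_ifs with h
        · rcases h with rfl | rfl <;> (show f _ = 4) <;> omega
        · simp only [not_or] at h; exact hz r h.2 h.1
      · have := hz m him.symm S.hmn
        omega
    · have h0 := hz none hin.symm hjn.symm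
      rcases eq_or_ne i (some 0) with rfl | hi0
      · rcases eq_or_ne j m with rfl | hjm
        · right; left
          refine rel_inj (u := u) fun r => ?_
          rw [hA]
          split_ifs with h
          · rcases h with rfl | rfl <;> (show f _ = 4) <;> omega
          · simp only [not_or] at h; exact hz r h.1 h.2
        · have := hz m S.hm0 hjm.symm
          omega
      rcases eq_or_ne j (some 0) with rfl | hj0
      · rcases eq_or_ne i m with rfl | him
        · right; left
          refine rel_inj (u := u) fun r => ?_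
          rw [hA]
          split_ifs with h
          · rcases h with rfl | rfl <;> (show f _ = 4) <;> omega
          · simp only [not_or] at h; exact hz r h.2 h.1
        · have := hz m him.symm S.hm0
          omega
      have := hz (some 0) hi0.symm hj0.symm
      omega
  · have hs := sum_oct hO hOv hO0
    have hnO : none ∈ O := by
      by_contra h
      have := hO0 none h
      by_cases h' : some 0 ∈ O
      · have := hOv _ h'; omega
      · have := hO0 _ h'; omega
    have h0O : some 0 ∈ O := by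
      by_contra h
      have := hO0 _ h
      have := hOv none hnO
      omega
    have f0 : f none = 2 ∧ f (some 0) = 2 := by
      have := hOv none hnO; have := hOv _ h0O; omega
    by_cases hmO : m ∈ O
    · have hm2 : f m = 2 ∧ (negSet O f).card = 1 := by
        rcases hOv m hmO with e | e
        · omega
        · exfalso
          omega
      obtain ⟨p, hp⟩ := Finset.card_eq_one.1 hm2.2
      have hpv : ∀ r, r ∈ negSet O f ↔ r = p := fun r => by rw [hp, Finset.mem_singleton]
      have hp' : p ∈ O ∧ f p < 0 := Finset.mem_filter.1 ((hpv p).2 rfl)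
      right; right; left
      refine ⟨⟨O, p⟩, mem_bIdx.2 ⟨mem_octsIn.2 ⟨hO, hnO, h0O, hmO⟩, hp'.1, ?_, ?_, ?_⟩,
        fun r => ?_⟩
      · intro e
        have h2 : f p = f none := congrArg f e
        omega
      · intro e
        have h2 : f p = f (some 0) := congrArg f e
        omega
      · intro e
        have h2 : f p = f m := congrArg f e
        omega
      rw [mF2]
      show f r = if r = p then -2 else if r ∈ O then 2 else 0
      split_ifs with h1 h2
      · subst h1
        have := hOv _ hp'.1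
        omega
      · rcases hOv r h2 with e | e
        · exact e
        · exact absurd ((hpv r).1 (Finset.mem_filter.2 ⟨h2, by omega⟩)) h1
      · exact hO0 r h2
    · have hm2 := hO0 m hmO
      have hN : negSet O f = ∅ := Finset.card_eq_zero.1 (by omega)
      right; right; right; right; left
      refine ⟨O, mem_octsOut.2 ⟨hO, hnO, h0O, hmO⟩, fun r => ?_⟩
      rw [hsF2]
      show f r = if r ∈ O then 2 else 0
      split_ifs with h
      · rcases hOv r h with e | e
        · exact e
        · have : r ∈ negSet O f := Finset.mem_filter.2 ⟨h, by omega⟩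
          simp [hN] at this
      · exact hO0 r h
  · have hs := sum_three hk
    have hi' : i = none ∨ i = some 0 := by
      by_contra! h
      have := hk none h.1.symm
      have := hk (some 0) h.2.symm
      omega
    obtain ⟨j, hij, hjn, hfi, hfj⟩ : ∃ j, i ≠ j ∧
        ((i = none ∧ j = some 0) ∨ (i = some 0 ∧ j = none)) ∧ f i = 3 ∧ f j = 1 := by
      rcases hi' with rfl | rfl
      · have := hk (some 0) (by simp)
        exact ⟨some 0, by simp, Or.inl ⟨rfl, rfl⟩, by omega, by omega⟩
      · have := hk none (by simp)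
        exact ⟨none, by simp, Or.inr ⟨rfl, rfl⟩, by omega, by omega⟩
    have him : i ≠ m := by rcases hi' with rfl | rfl; exacts [S.hmn.symm, S.hm0.symm]
    have hjm : j ≠ m := by
      rcases hjn with ⟨-, rfl⟩ | ⟨-, rfl⟩; exacts [S.hm0.symm, S.hmn.symm]
    have hsum : f none + f (some 0) = 4 := by omega
    set N := negSet (Finset.univ.erase i) f with hN
    have hoddy : IsOdd y := by
      rcases parity_all y with h | h
      · have := h i
        have e : rel u y i = 3 := hfi
        simp only [rel, sg] at e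
        split_ifs at e <;> omega
      · exact h
    have hD := diffSet_mem_odd S.odd hoddy
    have hmem : ∀ r, r ∈ diffSet (mag u) (rel u y) ↔
        r = j ∨ (r = m ∧ f m = 1) ∨ (r ≠ j ∧ r ≠ m ∧ r ∈ N) := by
      intro r
      simp only [diffSet, Finset.mem_filter, Finset.mem_univ, true_and, S.mag_eq, mag3,
        show rel u y r = f r from rfl, hN, negSet, Finset.mem_erase]
      rcases eq_or_ne r i with rfl | hri
      · have e : r = none ∨ r = some 0 ∨ r = m := by rcases hi' with h | h <;> simp [h]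
        rw [if_pos e]; simp [hfi, hij, him]
      rcases eq_or_ne r j with rfl | hrj
      · have e : r = none ∨ r = some 0 ∨ r = m := by
          rcases hjn with ⟨-, h⟩ | ⟨-, h⟩ <;> simp [h]
        rw [if_pos e]; simp [hfj]
      rcases eq_or_ne r m with rfl | hrm
      · rcases hk r hri with e | e <;> simp [e, hrj]
      · have e : ¬ (r = none ∨ r = some 0 ∨ r = m) := by
          rcases hjn with ⟨h, h'⟩ | ⟨h, h'⟩ <;> subst h h' <;> tauto
        rw [if_neg e]
        rcases hk r hri with e' | e' <;> simp [e', hri, hrj, hrm]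
    rcases hk m him.symm with hfm | hfm
    · have hN6 : N.card = 6 := by omega
      have hjN : j ∉ N := fun h => by have := (Finset.mem_filter.1 h).2; omega
      have hmN : m ∉ N := fun h => by have := (Finset.mem_filter.1 h).2; omega
      have hDeq : diffSet (mag u) (rel u y) = insert j (insert m N) := by
        ext r
        rw [hmem]
        simp only [Finset.mem_insert, hfm, and_true]
        constructor
        · rintro (h | h | ⟨-, -, h⟩) <;> simp [h]
        · rintro (h | h | h)
          · exact Or.inl h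
          · exact Or.inr (Or.inl h)
          · exact Or.inr (Or.inr ⟨fun e => hjN (e ▸ h), fun e => hmN (e ▸ h), h⟩)
      have hH : insert j (insert m N) ∈ octsOut j m i := by
        refine mem_octsOut.2 ⟨⟨hDeq ▸ hD, ?_⟩, by simp, by simp, ?_⟩
        · rw [Finset.card_insert_of_notMem (by simp [hjm, hjN]),
            Finset.card_insert_of_notMem hmN, hN6]
        · simp only [Finset.mem_insert, not_or]
          exact ⟨hij, him, fun h => (Finset.mem_erase.1 (Finset.mem_filter.1 h).1).1 rfl⟩
      have hrel : ∀ r, rel u y r = mF3 i j m (insert j (insert m N)) r := fun r => by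
        show f r = _
        rw [mF3]
        split_ifs with h1 h2 h3
        · subst h1; exact hfi
        · rcases h2 with rfl | rfl <;> assumption
        · simp only [Finset.mem_insert] at h3
          rcases h3 with h3 | h3 | h3
          · exact absurd (Or.inl h3) h2
          · exact absurd (Or.inr h3) h2
          · have := (Finset.mem_filter.1 h3).2
            have := hk r h1
            omega
        · rcases hk r h1 with e | e
          · exact e
          · exact absurd (Finset.mem_insert.2 (Or.inr (Finset.mem_insert.2 (Or.inr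
              (Finset.mem_filter.2 ⟨Finset.mem_erase.2 ⟨h1, Finset.mem_univ _⟩, by omega⟩))))) h3
      rcases hjn with ⟨rfl, rfl⟩ | ⟨rfl, rfl⟩
      · right; right; right; left
        exact ⟨_, hH, hrel⟩
      · right; right; right; right; right
        exact ⟨_, hH, hrel⟩
    · exfalso
      have hN4 : N.card = 4 := by omega
      have h8 := eight_le_code hD ⟨j, (hmem j).2 (Or.inl rfl)⟩
      have hsub : diffSet (mag u) (rel u y) ⊆ insert j N := fun r hr => by
        rcases (hmem r).1 hr with h | ⟨-, h⟩ | ⟨-, -, h⟩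
        · simp [h]
        · omega
        · simp [h]
      have := Finset.card_le_card hsub
      have := Finset.card_insert_le j N
      omega

theorem mcl_x : x ∈ mclPts u ∧ ip x x = 32 := by
  obtain ⟨e1, -, e3, e4⟩ := mcl_ip S x
  have hm : rel u x m = 4 := by rw [S.xrel]; simp [xF]
  have hn : rel u x none = 4 := by rw [S.xrel]; simp [xF]
  have h0 : rel u x (some 0) = 0 := by rw [S.xrel]; simp [xF, S.hm0.symm]
  have h32 : nrm x = 32 := by rw [← ip_self, e4, hn, hm]; norm_num
  refine ⟨⟨h32, by rw [e1, hn, h0]; norm_num, ?_⟩, by rw [ip_self]; exact h32⟩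
  rw [e3, sum_two S.hmn.symm fun k h h' => by rw [S.xrel]; simp [xF, h, h'], hn, h0, hm]
  norm_num

theorem mcl_A : x - Spor.leechU' ∈ mclPts u ∧ ip x (x - Spor.leechU') = 16 ∧
    ip Spor.leechU' (x - Spor.leechU') = -16 := by
  obtain ⟨⟨h1, h2, h3⟩, h4⟩ := mcl_x S
  obtain ⟨-, f2, -, -⟩ := mcl_ip S x
  have hp : ip Spor.leechU' x = 16 := by
    rw [f2, S.xrel, S.xrel]; simp [xF, S.hm0.symm]
  have hu' : ip u Spor.leechU' = 0 := by
    rw [ip_comm, ip_leechU', S.a0, S.a1]; norm_num
  refine ⟨⟨?_, ?_, ?_⟩, ?_, ?_⟩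
  · rw [nrm_sub, h1, ip_comm, hp, nrm_leechU']; norm_num
  · rw [ip_sub_right, h2, ip_leechU_leechU']; norm_num
  · rw [ip_sub_right, h3, hu']; norm_num
  · rw [ip_sub_right, h4, ip_comm x Spor.leechU', hp]; norm_num
  · rw [ip_sub_right, hp, ip_self, nrm_leechU']; norm_num

theorem mcl_B {y : leechLattice} (hy : y ∈ mclB u m) : y ∈ mclPts u ∧ ip x y = 16 ∧
    ip Spor.leechU' y = 0 := by
  obtain ⟨e, he, h⟩ := hy
  obtain ⟨e1, e2, e3, e4⟩ := mcl_ip S y
  obtain ⟨hO, -, pn, p0, pm⟩ := mem_bIdx.1 he
  obtain ⟨-, a, b, c⟩ := mem_octsIn.1 hO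
  obtain ⟨s1, s2⟩ := sum_mF2 he
  have va : mF2 e none = 2 ∧ mF2 e (some 0) = 2 ∧ mF2 e m = 2 := by
    simp [mF2, pn.symm, p0.symm, pm.symm, a, b, c]
  refine ⟨⟨?_, ?_, ?_⟩, ?_, ?_⟩
  · rw [nrm_rel u, Finset.sum_congr rfl fun r _ => by rw [h r], s2]
  · rw [e1, h, h, va.1, va.2.1]; norm_num
  · rw [e3, Finset.sum_congr rfl fun r _ => h r, s1, h, h, h, va.1, va.2.1, va.2.2]; norm_num
  · rw [e4, h, h, va.1, va.2.2]; norm_num
  · rw [e2, h, h, va.1, va.2.1]; norm_num

theorem mcl_C {y : leechLattice} (hy : y ∈ mclC u m) : y ∈ mclPts u ∧ ip x y = 16 ∧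
    ip Spor.leechU' y = 8 := by
  obtain ⟨H, hH, h⟩ := hy
  obtain ⟨e1, e2, e3, e4⟩ := mcl_ip S y
  have hij : (none : GolayPt) ≠ some 0 := by simp
  obtain ⟨va, vb, vc⟩ := mF3_values hij S.hmn.symm S.hm0.symm hH
  refine ⟨⟨?_, ?_, ?_⟩, ?_, ?_⟩
  · rw [nrm_rel u, Finset.sum_congr rfl fun r _ => by rw [h r],
      sum_sq_mF3 hij S.hmn.symm S.hm0.symm hH]
  · rw [e1, h, h, va, vb]; norm_num
  · rw [e3, Finset.sum_congr rfl fun r _ => h r, sum_mF3 hij S.hmn.symm S.hm0.symm hH,
      h, h, h, va, vb, vc]; norm_num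
  · rw [e4, h, h, va, vc]; norm_num
  · rw [e2, h, h, va, vb]; norm_num

theorem mcl_E {y : leechLattice} (hy : y ∈ mclE u m) : y ∈ mclPts u ∧ ip x y = 8 ∧
    ip Spor.leechU' y = -8 := by
  obtain ⟨H, hH, h⟩ := hy
  obtain ⟨e1, e2, e3, e4⟩ := mcl_ip S y
  have hij : (some 0 : GolayPt) ≠ none := by simp
  obtain ⟨va, vb, vc⟩ := mF3_values hij S.hm0.symm S.hmn.symm hH
  refine ⟨⟨?_, ?_, ?_⟩, ?_, ?_⟩
  · rw [nrm_rel u, Finset.sum_congr rfl fun r _ => by rw [h r],
      sum_sq_mF3 hij S.hm0.symm S.hmn.symm hH]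
  · rw [e1, h, h, va, vb]; norm_num
  · rw [e3, Finset.sum_congr rfl fun r _ => h r, sum_mF3 hij S.hm0.symm S.hmn.symm hH,
      h, h, h, va, vb, vc]; norm_num
  · rw [e4, h, h, vb, vc]; norm_num
  · rw [e2, h, h, va, vb]; norm_num

theorem mcl_D {y : leechLattice} (hy : y ∈ mclD u m) : y ∈ mclPts u ∧ ip x y = 8 ∧
    ip Spor.leechU' y = 0 := by
  obtain ⟨O, hO, h⟩ := hy
  obtain ⟨e1, e2, e3, e4⟩ := mcl_ip S y
  obtain ⟨hO', a, b, c⟩ := mem_octsOut.1 hO
  have va : hsF2 O none = 2 ∧ hsF2 O (some 0) = 2 ∧ hsF2 O m = 0 := by simp [hsF2, a, b, c]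
  refine ⟨⟨?_, ?_, ?_⟩, ?_, ?_⟩
  · rw [nrm_rel u, Finset.sum_congr rfl fun r _ => by rw [h r]]
    simp only [hsF2, ite_pow, ne_eq, OfNat.ofNat_ne_zero, not_false_eq_true, zero_pow,
      Finset.sum_ite_mem, Finset.univ_inter, Finset.sum_const, hO'.2]
    norm_num
  · rw [e1, h, h, va.1, va.2.1]; norm_num
  · rw [e3, Finset.sum_congr rfl fun r _ => h r, sum_hsF2 hO', h, h, h, va.1, va.2.1, va.2.2]
    norm_num
  · rw [e4, h, h, va.1, va.2.2]; norm_num
  · rw [e2, h, h, va.1, va.2.1]; norm_num

theorem ncard_mclB : (mclB u m).ncard = 105 := by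
  refine (ncard_param u (bIdx m) mF2 ?_ fun e he => ?_).trans (card_bIdx S.hmn S.hm0)
  · rintro ⟨O, p⟩ ha ⟨O', p'⟩ hb h
    obtain ⟨hO, hp, -, -, -⟩ := mem_bIdx.1 ha
    obtain ⟨hO', hp', -, -, -⟩ := mem_bIdx.1 hb
    have hpp : p = p' := by
      by_contra hne
      have := congrFun h p
      simp only [mF2, if_true, if_neg hne] at this
      split_ifs at this <;> omega
    subst hpp
    have : O = O' := by
      ext r
      have := congrFun h r
      simp only [mF2] at this
      rcases eq_or_ne r p with rfl | hr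
      · exact iff_of_true hp hp'
      · rw [if_neg hr, if_neg hr] at this
        split_ifs at this with h1 h2 <;> simp_all
    subst this; rfl
  · obtain ⟨hO, hp, pn, p0, pm⟩ := mem_bIdx.1 he
    obtain ⟨hO', a, b, c⟩ := mem_octsIn.1 hO
    refine exists_even S.odd _ (fun r => ?_) ?_ ?_
    · simp only [mF2]; split_ifs <;> norm_num
    · have : diffSet (fun _ => 0) (mF2 e) = e.1 := by
        ext r; rw [diffSet, Finset.mem_filter]; simp only [Finset.mem_univ, true_and, mF2]
        rcases eq_or_ne r e.2 with rfl | hr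
        · simp [hp]
        · rw [if_neg hr]; split_ifs with q <;> simp [q]
      rw [this]; exact hO'.1
    · simp only [S.mag_eq, sum_mag3 S.hmn S.hm0, (sum_mF2 he).1]
      simp [mF2, pn.symm, p0.symm, pm.symm, a, b, c]

theorem ncard_mF3 {i j : GolayPt} (hij : i ≠ j) (him : i ≠ m) (hjm : j ≠ m)
    (hset : ({i, j} : Finset GolayPt) = {none, some 0}) :
    {y : leechLattice | ∃ H ∈ octsOut j m i, ∀ r, rel u y r = mF3 i j m H r}.ncard = 56 := by
  have hij' : (i = none ∧ j = some 0) ∨ (i = some 0 ∧ j = none) := by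
    have h1 : i ∈ ({none, some 0} : Finset GolayPt) := hset ▸ Finset.mem_insert_self _ _
    have h2 : j ∈ ({none, some 0} : Finset GolayPt) := hset ▸ by simp
    simp only [Finset.mem_insert, Finset.mem_singleton] at h1 h2
    rcases h1 with rfl | rfl <;> rcases h2 with rfl | rfl <;> simp at hij ⊢
  refine (ncard_param u (octsOut j m i) (mF3 i j m) ?_ fun H hH => ?_).trans
    (card_octsOut hjm hij.symm him.symm)
  · intro A hA B hB h
    obtain ⟨-, a1, a2, a3⟩ := mem_octsOut.1 hA
    obtain ⟨-, b1, b2, b3⟩ := mem_octsOut.1 hB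
    ext r
    have := congrFun h r
    simp only [mF3] at this
    rcases eq_or_ne r i with rfl | hri
    · exact iff_of_false a3 b3
    rcases eq_or_ne r j with rfl | hrj
    · exact iff_of_true a1 b1
    rcases eq_or_ne r m with rfl | hrm
    · exact iff_of_true a2 b2
    simp only [hri, hrj, hrm, or_self, if_false] at this
    split_ifs at this with h1 h2 <;> simp_all
  · obtain ⟨hH', a1, a2, a3⟩ := mem_octsOut.1 hH
    obtain ⟨va, vb, vc⟩ := mF3_values hij him hjm hH
    refine exists_odd S.odd (by rw [S.nu]; norm_num) _ (fun r => ?_) ?_ ?_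
    · simp only [mF3]; split_ifs <;> norm_num
    · have : diffSet (mag u) (mF3 i j m H) = H := by
        ext r
        rw [diffSet, Finset.mem_filter]
        simp only [Finset.mem_univ, true_and, S.mag_eq, mag3, mF3]
        rcases eq_or_ne r i with rfl | hri
        · have e : r = none ∨ r = some 0 ∨ r = m := by
            rcases hij' with ⟨h, -⟩ | ⟨h, -⟩ <;> simp [h]
          rw [if_pos rfl, if_pos e]; simp [a3]
        rw [if_neg hri]
        rcases eq_or_ne r j with rfl | hrj
        · have e : r = none ∨ r = some 0 ∨ r = m := by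
            rcases hij' with ⟨-, h⟩ | ⟨-, h⟩ <;> simp [h]
          rw [if_pos (Or.inl rfl), if_pos e]; simp [a1]
        rcases eq_or_ne r m with rfl | hrm
        · rw [if_pos (Or.inr rfl), if_pos (Or.inr (Or.inr rfl))]; simp [a2]
        · have e : ¬ (r = none ∨ r = some 0 ∨ r = m) := by
            rcases hij' with ⟨h, h'⟩ | ⟨h, h'⟩ <;> subst h h' <;> tauto
          rw [if_neg (not_or.2 ⟨hrj, hrm⟩), if_neg e]
          split_ifs with q <;> simp [q]
      rw [this]; exact hH'.1
    · simp only [S.mag_eq, sum_mag3 S.hmn S.hm0, sum_mF3 hij him hjm hH]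
      rcases hij' with ⟨rfl, rfl⟩ | ⟨rfl, rfl⟩ <;> rw [va, vb, vc] <;> norm_num

theorem ncard_mclC : (mclC u m).ncard = 56 :=
  ncard_mF3 S (by simp) S.hmn.symm S.hm0.symm rfl

theorem ncard_mclE : (mclE u m).ncard = 56 :=
  ncard_mF3 S (by simp) S.hm0.symm S.hmn.symm (Finset.pair_comm _ _)

theorem ncard_mclD : (mclD u m).ncard = 56 := by
  refine (ncard_param u (octsOut none (some 0) m) hsF2 ?_ fun O hO => ?_).trans
    (card_octsOut (by simp) S.hmn.symm S.hm0.symm)
  · intro A _ B _ h
    ext r
    have := congrFun h r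
    simp only [hsF2] at this
    split_ifs at this with h1 h2 <;> simp_all
  · obtain ⟨hO', a, b, c⟩ := mem_octsOut.1 hO
    refine exists_even S.odd _ (fun r => ?_) ?_ ?_
    · simp only [hsF2]; split_ifs <;> norm_num
    · have : diffSet (fun _ => 0) (hsF2 O) = O := by
        ext r; rw [diffSet, Finset.mem_filter]; simp only [Finset.mem_univ, true_and, hsF2]
        split_ifs with q <;> simp [q]
      rw [this]; exact hO'.1
    · simp only [S.mag_eq, sum_mag3 S.hmn S.hm0, sum_hsF2 hO']
      simp [hsF2, a, b, c]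

theorem mcl_split : {y ∈ mclPts u | ip x y = 8} = mclD u m ∪ mclE u m ∧
    {y ∈ mclPts u | y ≠ x ∧ ip x y = 16} = insert (x - Spor.leechU') (mclB u m ∪ mclC u m) := by
  constructor <;> ext y <;> constructor
  · rintro ⟨hy, h8⟩
    rcases mcl_class S hy with rfl | rfl | h | h | h | h
    · rw [(mcl_x S).2] at h8; norm_num at h8
    · rw [(mcl_A S).2.1] at h8; norm_num at h8
    · rw [(mcl_B S h).2.1] at h8; norm_num at h8
    · rw [(mcl_C S h).2.1] at h8; norm_num at h8
    · exact Or.inl h
    · exact Or.inr h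
  · rintro (h | h)
    · exact ⟨(mcl_D S h).1, (mcl_D S h).2.1⟩
    · exact ⟨(mcl_E S h).1, (mcl_E S h).2.1⟩
  · rintro ⟨hy, hne, h16⟩
    rcases mcl_class S hy with rfl | rfl | h | h | h | h
    · exact absurd rfl hne
    · exact Or.inl rfl
    · exact Or.inr (Or.inl h)
    · exact Or.inr (Or.inr h)
    · rw [(mcl_D S h).2.1] at h16; norm_num at h16
    · rw [(mcl_E S h).2.1] at h16; norm_num at h16
  · intro h
    have key : y ∈ mclPts u ∧ ip x y = 16 := by
      rcases h with rfl | h | h
      · exact ⟨(mcl_A S).1, (mcl_A S).2.1⟩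
      · exact ⟨(mcl_B S h).1, (mcl_B S h).2.1⟩
      · exact ⟨(mcl_C S h).1, (mcl_C S h).2.1⟩
    refine ⟨key.1, ?_, key.2⟩
    rintro rfl
    have := key.2
    rw [(mcl_x S).2] at this
    norm_num at this

theorem ncard_mcl8 : {y ∈ mclPts u | ip x y = 8}.ncard = 112 := by
  have f1 : (mclD u m).Finite := Set.finite_of_ncard_ne_zero (by rw [ncard_mclD S]; norm_num)
  have f2 : (mclE u m).Finite := Set.finite_of_ncard_ne_zero (by rw [ncard_mclE S]; norm_num)
  have hd : Disjoint (mclD u m) (mclE u m) := Set.disjoint_left.2 fun y h h' => by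
    have := (mcl_D S h).2.2
    have := (mcl_E S h').2.2
    omega
  rw [(mcl_split S).1, Set.ncard_union_eq hd f1 f2, ncard_mclD S, ncard_mclE S]

theorem ncard_mcl16 : {y ∈ mclPts u | y ≠ x ∧ ip x y = 16}.ncard = 162 := by
  have f1 : (mclB u m).Finite := Set.finite_of_ncard_ne_zero (by rw [ncard_mclB S]; norm_num)
  have f2 : (mclC u m).Finite := Set.finite_of_ncard_ne_zero (by rw [ncard_mclC S]; norm_num)
  have hd : Disjoint (mclB u m) (mclC u m) := Set.disjoint_left.2 fun y h h' => by
    have := (mcl_B S h).2.2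
    have := (mcl_C S h').2.2
    omega
  have hnot : x - Spor.leechU' ∉ mclB u m ∪ mclC u m := by
    rintro (h | h)
    · have := (mcl_B S h).2.2
      rw [(mcl_A S).2.2] at this; norm_num at this
    · have := (mcl_C S h).2.2
      rw [(mcl_A S).2.2] at this; norm_num at this
  rw [(mcl_split S).2, Set.ncard_insert_of_notMem hnot (f1.union f2),
    Set.ncard_union_eq hd f1 f2, ncard_mclB S, ncard_mclC S]

theorem ncard_mclPts : (mclPts u).ncard = 275 := by
  have h8 := ncard_mcl8 S
  have h16 := ncard_mcl16 S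
  have e : mclPts u = insert x
      ({y ∈ mclPts u | y ≠ x ∧ ip x y = 16} ∪ {y ∈ mclPts u | ip x y = 8}) := by
    ext y
    refine ⟨fun h => ?_, ?_⟩
    · by_cases hyx : y = x
      · exact Or.inl hyx
      rcases mcl_class S h with e | rfl | e | e | e | e
      · exact absurd e hyx
      · exact Or.inr (Or.inl ⟨h, hyx, (mcl_A S).2.1⟩)
      · exact Or.inr (Or.inl ⟨h, hyx, (mcl_B S e).2.1⟩)
      · exact Or.inr (Or.inl ⟨h, hyx, (mcl_C S e).2.1⟩)
      · exact Or.inr (Or.inr ⟨h, (mcl_D S e).2.1⟩)
      · exact Or.inr (Or.inr ⟨h, (mcl_E S e).2.1⟩)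
    · rintro (rfl | h | h)
      · exact (mcl_x S).1
      · exact h.1
      · exact h.1
  have f1 : {y ∈ mclPts u | y ≠ x ∧ ip x y = 16}.Finite :=
    Set.finite_of_ncard_ne_zero (by omega)
  have f2 : {y ∈ mclPts u | ip x y = 8}.Finite := Set.finite_of_ncard_ne_zero (by omega)
  have hd : Disjoint {y ∈ mclPts u | y ≠ x ∧ ip x y = 16} {y ∈ mclPts u | ip x y = 8} :=
    Set.disjoint_left.2 fun y h h' => by have := h.2.2; have := h'.2; omega
  have hnot : x ∉ {y ∈ mclPts u | y ≠ x ∧ ip x y = 16} ∪ {y ∈ mclPts u | ip x y = 8} := by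
    rintro (h | h)
    · exact h.2.1 rfl
    · have := h.2
      rw [(mcl_x S).2] at this
      norm_num at this
  rw [e, Set.ncard_insert_of_notMem hnot (f1.union f2), Set.ncard_union_eq hd f1 f2, h16, h8]

end

end CfsgLib.LeechTriples
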