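import Mathlib
import Cfsg.Agent.LeechTriples.McLPoints
import Cfsg.Agent.LeechTriples.HSTransfer

/-! Transitivity and rank 3 on the 275 points. -/

set_option autoImplicit false

namespace CfsgLib.LeechTriples

open Cfsg CfsgLib.Leech
open scoped Pointwise symmDiff

section

variable {x u : leechLattice} {m : GolayPt} (S : Std x u m)
include S

theorem mcl_trans_D {y y' : leechLattice} (hy : y ∈ mclD u m) (hy' : y' ∈ mclD u m) :
    ∃ g : Co0, g • Spor.leechU = Spor.leechU ∧ g • x = x ∧ g • u = u ∧ g • y = y' := by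
  obtain ⟨O, hO, h⟩ := hy
  obtain ⟨O', hO', h'⟩ := hy'
  obtain ⟨o1, o2, o3, o4⟩ := mem_octsOut.1 hO
  obtain ⟨p1, p2, p3, p4⟩ := mem_octsOut.1 hO'
  obtain ⟨σ, hσ, s0, s1, sm, sO⟩ :=
    exists_perm_two_out (by simp) o1 o2 o3 o4 (by simp) p1 p2 p3 p4
  obtain ⟨g, g1, -, g3, g4, g5⟩ :=
    mcl_mono hσ s0 s1 sm S.odd S.mag_eq S.a0 S.a1 S.xrel S.mag_eq S.a0 S.a1 S.xrel
  refine ⟨g, g1, g3, g4, rel_inj (u := u) fun r => ?_⟩
  obtain ⟨t, rfl⟩ := σ.surjective r
  rw [g5, h, h']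
  simp only [hsF2, ← sO, ← Equiv.Perm.smul_def, Finset.smul_mem_smul_finset_iff]

theorem mcl_trans_E {y y' : leechLattice} (hy : y ∈ mclE u m) (hy' : y' ∈ mclE u m) :
    ∃ g : Co0, g • Spor.leechU = Spor.leechU ∧ g • x = x ∧ g • u = u ∧ g • y = y' := by
  obtain ⟨O, hO, h⟩ := hy
  obtain ⟨O', hO', h'⟩ := hy'
  obtain ⟨o1, o2, o3, o4⟩ := mem_octsOut.1 hO
  obtain ⟨p1, p2, p3, p4⟩ := mem_octsOut.1 hO'
  obtain ⟨σ, hσ, s0, sm, s1, sO⟩ :=
    exists_perm_two_out S.hmn.symm o1 o2 o3 o4 S.hmn.symm p1 p2 p3 p4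
  obtain ⟨g, g1, -, g3, g4, g5⟩ :=
    mcl_mono hσ s0 s1 sm S.odd S.mag_eq S.a0 S.a1 S.xrel S.mag_eq S.a0 S.a1 S.xrel
  refine ⟨g, g1, g3, g4, rel_inj (u := u) fun r => ?_⟩
  obtain ⟨t, rfl⟩ := σ.surjective r
  rw [g5, h, h']
  simp only [mF3]
  have e0 : σ t = none ↔ t = none := by conv_lhs => rw [← s0, σ.injective.eq_iff]
  have e1 : σ t = some 0 ↔ t = some 0 := by conv_lhs => rw [← s1, σ.injective.eq_iff]
  have em : σ t = m ↔ t = m := by conv_lhs => rw [← sm, σ.injective.eq_iff]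
  have eO : σ t ∈ O' ↔ t ∈ O := by
    rw [← sO, ← Equiv.Perm.smul_def, Finset.smul_mem_smul_finset_iff]
  simp only [e0, e1, em, eO]

theorem exists_merge : ∃ g : Co0, g • Spor.leechU = Spor.leechU ∧ g • x = x ∧ g • u = u ∧
    ∃ d ∈ mclD u m, g • d ∈ mclE u m := by
  classical
  have hmn := S.hmn
  have hm0 := S.hm0
  obtain ⟨O, hO⟩ := Finset.card_pos.1
    (show 0 < (octsIn none (some 0) m).card by
      rw [card_octsIn (by simp) hmn.symm hm0.symm]; norm_num)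
  obtain ⟨o1, o2, o3, o4⟩ := mem_octsIn.1 hO
  obtain ⟨T, hT, hT3⟩ := Finset.exists_subset_card_eq (s := O \ {none, some 0, m}) (n := 3) (by
    rw [Finset.card_sdiff_of_subset (by simp [Finset.insert_subset_iff, o2, o3, o4]), o1.2]
    simp [hmn.symm, hm0.symm])
  obtain ⟨a, b, c, hab, hac, hbc, rfl⟩ := Finset.card_eq_three.1 hT3
  simp only [Finset.insert_subset_iff, Finset.singleton_subset_iff, Finset.mem_sdiff,
    Finset.mem_insert, Finset.mem_singleton, not_or] at hT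
  obtain ⟨⟨aO, an, a0, am⟩, ⟨bO, bn, b0, bm⟩, ⟨cO, cn, c0, cm⟩⟩ := hT
  obtain ⟨O', hO'⟩ := Finset.card_pos.1 (show 0 < (Golay.octadSets.filter
      fun q => O ∩ q = {none, some 0, a, b}).card by
    rw [Golay.octad_meet_four o1 (by simp [Finset.insert_subset_iff, o2, o3, aO, bO])
      (by simp [hab, Ne.symm an, Ne.symm a0, Ne.symm bn, Ne.symm b0])]
    norm_num)
  rw [Finset.mem_filter, Golay.mem_octadSets] at hO'
  obtain ⟨q1, hmeet⟩ := hO'
  have hin : ∀ r, r ∈ O → (r ∈ O' ↔ r = none ∨ r = some 0 ∨ r = a ∨ r = b) := fun r hr => by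
    have := Finset.ext_iff.1 hmeet r
    simp only [Finset.mem_inter, hr, true_and, Finset.mem_insert, Finset.mem_singleton] at this
    exact this
  have q2 : none ∈ O' := (hin _ o2).2 (Or.inl rfl)
  have q3 : some 0 ∈ O' := (hin _ o3).2 (Or.inr (Or.inl rfl))
  have q4 : m ∉ O' := fun h => by
    rcases (hin _ o4).1 h with e | e | e | e
    exacts [hmn e, hm0 e, am e.symm, bm e.symm]
  have hc : c ∉ O' := fun h => by
    rcases (hin _ cO).1 h with e | e | e | e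
    exacts [cn e, c0 e, hac e.symm, hbc e.symm]
  have hd : O' ∈ octsOut none (some 0) m := mem_octsOut.2 ⟨q1, q2, q3, q4⟩
  have he : (⟨O, c⟩ : (_ : Finset GolayPt) × GolayPt) ∈ bIdx m :=
    mem_bIdx.2 ⟨hO, cO, cn, c0, cm⟩
  obtain ⟨d, hdr⟩ : ∃ y : leechLattice, ∀ r, rel u y r = hsF2 O' r := by
    refine exists_even S.odd _ (fun r => ?_) ?_ ?_
    · simp only [hsF2]; split_ifs <;> norm_num
    · have : diffSet (fun _ => 0) (hsF2 O') = O' := by
        ext r; rw [diffSet, Finset.mem_filter]; simp only [Finset.mem_univ, true_and, hsF2]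
        split_ifs with q <;> simp [q]
      rw [this]; exact q1.1
    · simp only [S.mag_eq, sum_mag3 hmn hm0, sum_hsF2 q1]
      simp [hsF2, q2, q3, q4]
  have hd' : d ∈ mclD u m := ⟨O', hd, hdr⟩
  obtain ⟨w, hwr⟩ : ∃ y : leechLattice, ∀ r, rel u y r = mF2 ⟨O, c⟩ r := by
    refine exists_even S.odd _ (fun r => ?_) ?_ ?_
    · simp only [mF2]; split_ifs <;> norm_num
    · have : diffSet (fun _ => 0) (mF2 ⟨O, c⟩) = O := by
        ext r; rw [diffSet, Finset.mem_filter]; simp only [Finset.mem_univ, true_and, mF2]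
        rcases eq_or_ne r c with rfl | hr
        · simp [cO]
        · rw [if_neg hr]; split_ifs with q <;> simp [q]
      rw [this]; exact o1.1
    · simp only [S.mag_eq, sum_mag3 hmn hm0, (sum_mF2 he).1]
      simp [mF2, Ne.symm cn, Ne.symm c0, Ne.symm cm, o2, o3, o4]
  have hw' : w ∈ mclB u m := ⟨_, he, hwr⟩
  have hcommon : ip w d = 16 := by
    rw [ip_rel_rel u, Finset.sum_congr rfl fun r _ => by rw [hwr r, hdr r]]
    simp only [hsF2, mul_ite, mul_zero]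
    rw [Finset.sum_ite_mem, Finset.univ_inter, ← Finset.sum_mul]
    have : ∑ r ∈ O', mF2 ⟨O, c⟩ r = ∑ r ∈ ({none, some 0, a, b} : Finset GolayPt), 2 := by
      rw [← Finset.sum_subset (show ({none, some 0, a, b} : Finset GolayPt) ⊆ O' from
        hmeet ▸ Finset.inter_subset_right) fun r hr hr' => by
        have hrc : r ≠ c := fun e => hc (e ▸ hr)
        have hrO : r ∉ O := fun h => hr' (by
          rw [← hmeet]; exact Finset.mem_inter.2 ⟨h, hr⟩)
        simp [mF2, hrc, hrO]]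
      refine Finset.sum_congr rfl fun r hr => ?_
      have hr' : r ∈ O ∧ r ∈ O' := Finset.mem_inter.1 (hmeet.symm ▸ hr)
      have hrc : r ≠ c := fun e => hc (e ▸ hr'.2)
      simp [mF2, hrc, hr'.1]
    rw [this, Finset.sum_const, show ({none, some 0, a, b} : Finset GolayPt).card = 4 by
      simp [hab, Ne.symm an, Ne.symm a0, Ne.symm bn, Ne.symm b0]]
    norm_num
  obtain ⟨⟨d1, d2, d3⟩, d4, d5⟩ := mcl_D S hd'
  obtain ⟨⟨w1, w2, w3⟩, w4, -⟩ := mcl_B S hw'
  obtain ⟨⟨x1, x2, x3⟩, x4⟩ := mcl_x S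
  have hq : IsQuad Spor.leechU (x - w) x u :=
    ⟨nrm_leechU, by rw [nrm_sub, x1, w4, w1]; norm_num, x1, S.nu,
      by rw [ip_sub_right, x2, w2]; norm_num, x2,
      by rw [ip_comm, ip_sub_right, x4, w4]; norm_num,
      by rw [ip_leechU, S.a0, S.a1]; norm_num,
      by rw [ip_comm, ip_sub_right, x3, w3]; norm_num, by rw [ip_comm]; exact x3⟩
  have hq0 : IsQuad Spor.leechU Spor.leechU' x u :=
    ⟨nrm_leechU, nrm_leechU', x1, S.nu, ip_leechU_leechU', x2,
      by rw [(mcl_ip S x).2.1, S.xrel, S.xrel]; simp [xF, hm0.symm],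
      by rw [ip_leechU, S.a0, S.a1]; norm_num,
      by rw [ip_leechU', S.a0, S.a1]; norm_num, by rw [ip_comm]; exact x3⟩
  obtain ⟨g, g1, g2, g3, g4⟩ := exists_quad hq hq0
  have hgd : g • d ∈ {y ∈ mclPts u | ip x y = 8} := by
    refine ⟨⟨by rw [nrm_smul, d1], ?_, ?_⟩, ?_⟩
    · rw [← g1, ip_smul, d2]
    · rw [← g4, ip_smul, d3]
    · rw [← g3, ip_smul, d4]
  have hneg : ip Spor.leechU' (g • d) = -8 := by
    rw [← g2, ip_smul, ip_comm, ip_sub_right, ip_comm d x, ip_comm d w, d4, hcommon]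
    norm_num
  refine ⟨g, g1, g3, g4, d, hd', ?_⟩
  rw [(mcl_split S).1] at hgd
  rcases hgd with h | h
  · have := (mcl_D S h).2.2
    omega
  · exact h

theorem mcl_trans8 {y y' : leechLattice} (hy : y ∈ mclPts u) (h8 : ip x y = 8)
    (hy' : y' ∈ mclPts u) (h8' : ip x y' = 8) :
    ∃ g : Co0, g • Spor.leechU = Spor.leechU ∧ g • x = x ∧ g • u = u ∧ g • y = y' := by
  obtain ⟨k, k1, k2, k3, d, hd, he⟩ := exists_merge S
  have key : ∀ y, y ∈ mclPts u → ip x y = 8 →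
      ∃ g : Co0, g • Spor.leechU = Spor.leechU ∧ g • x = x ∧ g • u = u ∧ g • d = y := by
    intro y hy h8
    have hmem : y ∈ {y ∈ mclPts u | ip x y = 8} := ⟨hy, h8⟩
    rw [(mcl_split S).1] at hmem
    rcases hmem with h | h
    · exact mcl_trans_D S hd h
    · obtain ⟨g, g1, g2, g3, g4⟩ := mcl_trans_E S he h
      exact ⟨g * k, by rw [mul_smul, k1, g1], by rw [mul_smul, k2, g2], by rw [mul_smul, k3, g3],
        by rw [mul_smul, g4]⟩
  obtain ⟨g, g1, g2, g3, g4⟩ := key y hy h8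
  obtain ⟨h, h1, h2, h3, h4⟩ := key y' hy' h8'
  exact ⟨h * g⁻¹, by rw [mul_smul, inv_smul_eq_iff.2 g1.symm, h1],
    by rw [mul_smul, inv_smul_eq_iff.2 g2.symm, h2],
    by rw [mul_smul, inv_smul_eq_iff.2 g3.symm, h3],
    by rw [mul_smul, ← g4, inv_smul_smul, h4]⟩

end

/-- The points for a vector of squared length 48 and one of its summands. -/
def mclSet (u v : leechLattice) : Set leechLattice :=
  {x : leechLattice | sqNorm (x : GolayPt → ℤ) = 32 ∧
    sqNorm ((u - x) : GolayPt → ℤ) = 32 ∧ dotInt (v : GolayPt → ℤ) (x : GolayPt → ℤ) = 16}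

theorem mem_mclSet {u v y : leechLattice} (hu : nrm u = 48) :
    y ∈ mclSet u v ↔ nrm y = 32 ∧ ip u y = 24 ∧ ip v y = 16 := by
  constructor
  · rintro ⟨h1, h2, h3⟩
    exact ⟨h1, (ip_decomp hu h1).1 h2, h3⟩
  · rintro ⟨h1, h2, h3⟩
    exact ⟨h1, (ip_decomp hu h1).2 h2, h3⟩

theorem triple_of_mem {u v x : leechLattice} (hu : nrm u = 48) (hv : nrm v = 32)
    (hd : ip u v = 24) (hx : x ∈ mclSet u v) : IsTriple v x u := by
  obtain ⟨h1, h2, h3⟩ := (mem_mclSet hu).1 hx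
  exact ⟨hv, h1, hu, h3, by rw [ip_comm]; exact hd, by rw [ip_comm]; exact h2⟩

theorem mclSet_transitive {u v x x' : leechLattice} (hu : nrm u = 48) (hv : nrm v = 32)
    (hd : ip u v = 24) (hx : x ∈ mclSet u v) (hx' : x' ∈ mclSet u v) :
    ∃ g : Co0, g • u = u ∧ g • v = v ∧ g • x = x' := by
  obtain ⟨g, g1, g2, g3⟩ :=
    exists_mclTriple (triple_of_mem hu hv hd hx) (triple_of_mem hu hv hd hx')
  exact ⟨g, g3, g1, g2⟩

theorem mcl_norm {u v x : leechLattice} (hu : nrm u = 48) (hv : nrm v = 32)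
    (hd : ip u v = 24) (hx : x ∈ mclSet u v) :
    ∃ g : Co0, ∃ m, g • v = Spor.leechU ∧ Std (g • x) (g • u) m ∧
      ∀ y, y ∈ mclSet u v ↔ g • y ∈ mclPts (g • u) := by
  obtain ⟨z, hz⟩ := exists_quad_of_triple (triple_of_mem hu hv hd hx)
  obtain ⟨g, g1, g2⟩ := exists_pair_base v z hz.1 hz.2.1 hz.2.2.2.2.1
  have hq := hz.smul g
  rw [g1, g2] at hq
  obtain ⟨m, hm⟩ := std_of_quad hq
  refine ⟨g, m, g1, hm, fun y => ?_⟩
  rw [mem_mclSet hu, mclPts, Set.mem_setOf_eq, nrm_smul, ← g1, ip_smul, ip_smul]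
  tauto

theorem exists_mem_mclSet {u v : leechLattice} (hu : nrm u = 48) (hv : nrm v = 32)
    (hd : ip u v = 24) : ∃ x, x ∈ mclSet u v := by
  have hV : ip Spor.leechV (-Spor.leechU) = 24 := by
    rw [ip_neg_right, ip_comm, ip_leechU]; simp [Spor.leechV, Spor.vecV]
  have hW : ip Spor.leechV (-w16) = 24 := by
    rw [ip_neg_right, ip_comm, w16, ip_fourPair]; simp [Spor.leechV, Spor.vecV]
  have hUW : ip (-Spor.leechU) (-w16) = 16 := by
    rw [ip_neg_right, ip_comm, ip_neg_right, neg_neg, ip_comm, ip_leechU, w16, fourPair_apply,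
      fourPair_apply]
    simp [single, (by decide : ¬ (0 : ZMod 23) = 1)]
  have hW32 : nrm (-w16) = 32 := by rw [nrm_neg, w16, nrm_fourPair (by simp)]; norm_num
  obtain ⟨g, g1, g2⟩ := exists_decomp_smul Spor.leechV u (-Spor.leechU) v nrm_leechV
    (by rw [nrm_neg, nrm_leechU]) hV hu hv hd
  exact ⟨g • -w16, (mem_mclSet hu).2 ⟨by rw [nrm_smul, hW32], by rw [← g1, ip_smul, hW],
    by rw [← g2, ip_smul, hUW]⟩⟩

theorem ncard_mclSet {u v : leechLattice} (hu : nrm u = 48) (hv : nrm v = 32)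
    (hd : ip u v = 24) : (mclSet u v).ncard = 275 := by
  obtain ⟨x, hx⟩ := exists_mem_mclSet hu hv hd
  obtain ⟨g, m, -, hm, hg⟩ := mcl_norm hu hv hd hx
  rw [ncard_smul_set g hg, ncard_mclPts hm]

theorem mclSet_rank3 {u v x : leechLattice} (hu : nrm u = 48) (hv : nrm v = 32)
    (hd : ip u v = 24) (hx : x ∈ mclSet u v) :
    {y | y ∈ mclSet u v ∧ ip x y = 8}.ncard = 112 ∧
    {y | y ∈ mclSet u v ∧ y ≠ x ∧ ip x y = 16}.ncard = 162 ∧
    ∀ y ∈ mclSet u v, ∀ y' ∈ mclSet u v, y ≠ x → y' ≠ x → ip x y = ip x y' →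
      ∃ g : Co0, g • u = u ∧ g • v = v ∧ g • x = x ∧ g • y = y' := by
  obtain ⟨g, m, g1, hm, hg⟩ := mcl_norm hu hv hd hx
  have hne : ∀ y, g • y = g • x ↔ y = x := fun y => smul_left_cancel_iff g
  refine ⟨?_, ?_, fun y hy y' hy' n1 n2 he => ?_⟩
  · rw [ncard_smul_set g (T := {y | y ∈ mclPts (g • u) ∧ ip (g • x) y = 8}) fun y => by
      simp only [Set.mem_setOf_eq, hg, ip_smul]]
    exact ncard_mcl8 hm
  · rw [ncard_smul_set g (T := {y | y ∈ mclPts (g • u) ∧ y ≠ g • x ∧ ip (g • x) y = 16}) fun y => by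
      simp only [Set.mem_setOf_eq, hg, ip_smul, ne_eq, hne]]
    exact ncard_mcl16 hm
  · have hval : ip x y = 8 ∨ ip x y = 16 := by
      rw [← ip_smul g]
      rcases mcl_class hm ((hg y).1 hy) with e | e | e | e | e | e
      · exact absurd ((hne y).1 e) n1
      · rw [e]; exact Or.inr (mcl_A hm).2.1
      · exact Or.inr (mcl_B hm e).2.1
      · exact Or.inr (mcl_C hm e).2.1
      · exact Or.inl (mcl_D hm e).2.1
      · exact Or.inl (mcl_E hm e).2.1
    rcases hval with h8 | h16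
    · obtain ⟨k, k1, k2, k3, k4⟩ := mcl_trans8 hm ((hg y).1 hy) (by rw [ip_smul, h8])
        ((hg y').1 hy') (by rw [ip_smul, ← he, h8])
      exact ⟨g⁻¹ * k * g, by rw [mul_smul, mul_smul, k3, inv_smul_smul],
        by rw [mul_smul, mul_smul, g1, k1, ← g1, inv_smul_smul],
        by rw [mul_smul, mul_smul, k2, inv_smul_smul],
        by rw [mul_smul, mul_smul, k4, inv_smul_smul]⟩
    · obtain ⟨x1, x2, x3⟩ := (mem_mclSet hu).1 hx
      have hq : ∀ y ∈ mclSet u v, ip x y = 16 → IsQuad v (x - y) x u := fun y hy h => by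
        obtain ⟨y1, y2, y3⟩ := (mem_mclSet hu).1 hy
        refine ⟨hv, ?_, x1, hu, ?_, x3, ?_, by rw [ip_comm]; exact hd, ?_, by rw [ip_comm]; exact x2⟩
        · rw [nrm_sub, x1, h, y1]; norm_num
        · rw [ip_sub_right, x3, y3]; norm_num
        · rw [ip_comm, ip_sub_right, ip_self, x1, h]; norm_num
        · rw [ip_comm, ip_sub_right, x2, y2]; norm_num
      obtain ⟨k, k1, k2, k3, k4⟩ := exists_quad (hq y hy h16) (hq y' hy' (by rw [← he, h16]))
      refine ⟨k, k4, k1, k3, ?_⟩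
      rw [co0_map_sub, k3] at k2
      exact sub_right_inj.1 k2

end CfsgLib.LeechTriples
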