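import Mathlib
import Cfsg.Agent.LeechTriples.HSTransfer
import Cfsg.Agent.M24Orbits.Std

/-! An involution of the Higman–Sims configuration moving all points: the sign change on the
complement of a dodecad. -/

set_option autoImplicit false

namespace CfsgLib.LeechTriples

open Cfsg CfsgLib.Leech
open scoped Pointwise symmDiff

/-- The word of the complement of the dodecad. -/
def coWord : GolayPt → ZMod 2 := Golay.wordOf M24Orbits.D₀ᶜ

theorem coWord_mem : coWord ∈ golayCode := by
  obtain ⟨w, hw, h⟩ := Golay.compl_mem M24Orbits.D₀_mem.1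
  rw [coWord, ← h, Golay.wordOf_support₂]
  exact hw

/-- Twice the dodecad. -/
def dodVec : leechLattice :=
  ⟨fun i => 2 * (if i ∈ M24Orbits.D₀ then 1 else 0), two_mul_mem (by
      obtain ⟨w, hw, h⟩ := M24Orbits.D₀_mem.1
      have e : support₂ (red fun i => if i ∈ M24Orbits.D₀ then (1 : ℤ) else 0) = M24Orbits.D₀ :=
        support_red_eq fun i => by split_ifs with p <;> simp [p]
      rw [← Golay.support₂_injective (h.trans e.symm)]
      exact hw) (by decide +kernel)⟩

/-- `4(e_a + e_b)` for two points of the dodecad. -/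
def dodPair : leechLattice :=
  fourPair (Golay.pt 0) (Golay.pt 2) 1 1 (by norm_num)

theorem dod_facts : Golay.pt 0 ∈ M24Orbits.D₀ ∧ Golay.pt 2 ∈ M24Orbits.D₀ ∧
    Golay.pt 0 ≠ Golay.pt 2 ∧ Golay.pt 1 ∉ M24Orbits.D₀ := by decide +kernel

theorem dodVec_apply (i : GolayPt) :
    (dodVec : GolayPt → ℤ) i = 2 * (if i ∈ M24Orbits.D₀ then 1 else 0) := rfl

theorem dod_pair_values : nrm dodPair = 32 ∧ nrm dodVec = 48 ∧ ip dodPair dodVec = 16 := by
  obtain ⟨p, q, hpq, -⟩ := dod_facts
  refine ⟨?_, ?_, ?_⟩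
  · rw [dodPair, nrm_fourPair hpq]; norm_num
  · show sqNorm (dodVec : GolayPt → ℤ) = 48
    simp only [sqNorm, dodVec_apply]
    decide +kernel
  · rw [dodPair, ip_fourPair, dodVec_apply, dodVec_apply, if_pos p, if_pos q]; norm_num

/-- The sign change. -/
def hsInv : Co0 := signs coWord coWord_mem

theorem hsInv_apply (x : leechLattice) (i : GolayPt) :
    ((hsInv • x : leechLattice) : GolayPt → ℤ) i =
      if i ∈ M24Orbits.D₀ then (x : GolayPt → ℤ) i else -(x : GolayPt → ℤ) i := by
  rw [hsInv, signs_apply, coWord, Golay.wordOf]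
  by_cases h : i ∈ M24Orbits.D₀ <;> simp [h]

theorem hsInv_moves {x : leechLattice} (hx : nrm x = 32) (h : ip dodVec x = 24) :
    hsInv • x ≠ x := by
  intro e
  have hsupp : ∀ i, i ∉ M24Orbits.D₀ → (x : GolayPt → ℤ) i = 0 := fun i hi => by
    have := hsInv_apply x i
    rw [e, if_neg hi] at this
    omega
  have hip : ip dodVec x = 2 * ∑ i, (x : GolayPt → ℤ) i := by
    rw [Finset.mul_sum]
    refine Finset.sum_congr rfl fun i _ => ?_
    rw [dodVec_apply]
    split_ifs with hi
    · ring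
    · rw [hsupp i hi]; ring
  rw [hip] at h
  rcases shape32_raw x hx with ⟨i, j, hij, hi, hj, hk⟩ | ⟨O, hO, hOv, -⟩ | ⟨i, -, hk⟩
  · rw [sum_two hij hk] at h
    omega
  · have hsub : O ⊆ M24Orbits.D₀ := fun i hi => by
      by_contra hn
      have := hsupp i hn
      have := hOv i hi
      omega
    have hc := Golay.symmDiff_mem M24Orbits.D₀_mem.1 hO.1
    have hcard := Golay.card_symmDiff_add M24Orbits.D₀ O
    rw [Finset.inter_eq_right.2 hsub, M24Orbits.D₀_mem.2, hO.2] at hcard
    rcases Golay.card_mem hc with h' | h' | h' | h' | h' <;> omega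
  · obtain ⟨-, -, -, hout⟩ := dod_facts
    rcases eq_or_ne (Golay.pt 1) i with e' | e'
    · have h0 : Golay.pt 5 ∉ M24Orbits.D₀ ∧ Golay.pt 5 ≠ Golay.pt 1 := by decide +kernel
      have := hsupp _ h0.1
      have := hk _ (e' ▸ h0.2)
      omega
    · have := hsupp _ hout
      have := hk _ e'
      omega

theorem hs_involution {v w : leechLattice} (hv : nrm v = 48) (hw : nrm w = 48)
    (h : ip v w = -32) : ∃ g : Co0, g • v = v ∧ g • w = w ∧ orderOf g = 2 ∧
      ∀ x ∈ hsSet v w, g • x ≠ x := by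
  obtain ⟨h1, h2, -⟩ := hs_sum hv hw h
  obtain ⟨e1, e2, e3⟩ := dod_pair_values
  obtain ⟨k, k1, k2⟩ := exists_hsPair (v + w) v dodPair dodVec h1 hv h2 e1 e2 e3
  have fixV : hsInv • dodVec = dodVec := Subtype.ext (funext fun i => by
    rw [hsInv_apply, dodVec_apply]; split_ifs <;> simp)
  have fixP : hsInv • dodPair = dodPair := Subtype.ext (funext fun i => by
    obtain ⟨p, q, -, -⟩ := dod_facts
    rw [hsInv_apply, dodPair, fourPair_apply]
    simp only [single]
    split_ifs with a b c <;> first | rfl | (subst_vars; contradiction) | ring)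
  have f1 : (k⁻¹ * hsInv * k) • v = v := by
    rw [mul_smul, mul_smul, k2, fixV, ← k2, inv_smul_smul]
  have f2 : (k⁻¹ * hsInv * k) • (v + w) = v + w := by
    rw [mul_smul, mul_smul, k1, fixP, ← k1, inv_smul_smul]
  have hmove : ∀ x ∈ hsSet v w, (k⁻¹ * hsInv * k) • x ≠ x := fun x hx e => by
    obtain ⟨x1, -, x3⟩ := mem_hsSet.1 hx
    refine hsInv_moves (x := k • x) (by rw [nrm_smul, x1]) (by rw [← k2, ip_smul, x3]) ?_
    rw [mul_smul, mul_smul] at e
    conv_rhs => rw [← e, smul_inv_smul]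
  refine ⟨k⁻¹ * hsInv * k, f1, by rw [eq_of_sum f2 f1]; abel, ?_, hmove⟩
  have hsq : hsInv * hsInv = 1 := by
    refine co0_ext fun i => Subtype.ext (funext fun j => ?_)
    rw [mul_smul, hsInv_apply, hsInv_apply, one_smul]
    split_ifs <;> ring
  have hp : (k⁻¹ * hsInv * k) ^ 2 = 1 := by
    rw [sq, show k⁻¹ * hsInv * k * (k⁻¹ * hsInv * k) = k⁻¹ * (hsInv * hsInv) * k by group, hsq]
    group
  have := Fact.mk Nat.prime_two
  refine orderOf_eq_prime hp fun e => ?_
  obtain ⟨x, hx⟩ := exists_mem_hsSet hv hw h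
  exact hmove x hx (by rw [e, one_smul])

end CfsgLib.LeechTriples
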