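import Mathlib
import Cfsg.Agent.LeechTriples.Perm

/-! The permutations fixing an octad and an outside point are transitive on the other outside
points; an octad with three of its points. -/

set_option autoImplicit false

namespace CfsgLib.LeechTriples

open Cfsg CfsgLib.Golay CfsgLib.Mathieu CfsgLib.M24Orbits
open scoped Pointwise

/-- Points reached from `6` in `n` steps. -/
def outReach2 : ℕ → List ℕ
  | 0 => [6]
  | n + 1 => outReach2 n ++ Data.xoOutGens.flatMap fun t => (outReach2 n).map (app t)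

theorem outReach2_spec (n : ℕ) : ∀ i ∈ outReach2 n, ∃ g ∈ stabM O₀ ⊓
    MulAction.stabilizer _ X₀, p2i ((g : Equiv.Perm GolayPt) • i2p 6) = i := by
  induction n with
  | zero =>
    intro i hi
    rw [outReach2, List.mem_singleton] at hi
    exact ⟨1, one_mem _, by rw [one_smul, hi]; decide⟩
  | succ n ih =>
    intro i hi
    rw [outReach2, List.mem_append, List.mem_flatMap] at hi
    rcases hi with hi | ⟨t, ht, hi⟩
    · exact ih i hi
    · obtain ⟨j, hj, rfl⟩ := List.mem_map.1 hi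
      obtain ⟨g, hg, e⟩ := ih j hj
      obtain ⟨k, hk, hkt⟩ := xoOut_setup.rep t ht
      refine ⟨k * g, mul_mem hk hg, ?_⟩
      have h := encP_smul k (g • i2p 6)
      simp only [encP, actP, List.map_cons, List.map_nil, hkt, e] at h
      rw [mul_smul]
      exact List.head_eq_of_cons_eq h

theorem outReach2_all : ∀ p : GolayPt, p ∉ O₀ → p ≠ X₀ → p2i p ∈ outReach2 5 := by decide +kernel

theorem exists_map_octad_out_two {p q : GolayPt} {o : Finset GolayPt} (ho : o ∈ octads)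
    (hp : p ∉ o) (hq : q ∉ o) (hpq : p ≠ q) :
    ∃ k ∈ M24, k • O₀ = o ∧ k • X₀ = p ∧ k • i2p 6 = q := by
  obtain ⟨k, hk, k1, k2⟩ := exists_map_octad_out ho hp
  have h : k⁻¹ • q ∉ O₀ := by rw [Finset.inv_smul_mem_iff, k1]; exact hq
  have h' : k⁻¹ • q ≠ X₀ := fun e => hpq (by rw [← k2, ← e, smul_inv_smul])
  obtain ⟨g, hg, e⟩ := outReach2_spec 5 _ (outReach2_all _ h h')
  have e' : g • i2p 6 = k⁻¹ • q := by rw [← i2p_p2i (g • i2p 6), e, i2p_p2i]
  refine ⟨k * g, M24.mul_mem hk hg.1.1, ?_, ?_, ?_⟩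
  · rw [mul_smul, smul_eq_self hg.1, k1]
  · rw [mul_smul, MulAction.mem_stabilizer_iff.1 hg.2, k2]
  · rw [mul_smul, e', smul_inv_smul]

/-- A permutation between octads avoiding two given points. -/
theorem exists_perm_out_two {p q : GolayPt} (hpq : p ≠ q) {o : Finset GolayPt} (ho : o ∈ octads)
    (hp : p ∉ o) (hq : q ∉ o) {p' q' : GolayPt} (hpq' : p' ≠ q') {o' : Finset GolayPt}
    (ho' : o' ∈ octads) (hp' : p' ∉ o') (hq' : q' ∉ o') :
    ∃ σ ∈ M24, σ p = p' ∧ σ q = q' ∧ σ • o = o' := by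
  obtain ⟨k, hk, k1, k2, k3⟩ := exists_map_octad_out_two ho hp hq hpq
  obtain ⟨l, hl, l1, l2, l3⟩ := exists_map_octad_out_two ho' hp' hq' hpq'
  refine ⟨l * k⁻¹, M24.mul_mem hl (inv_mem hk), ?_, ?_, ?_⟩
  · show l (k⁻¹ • p) = p'
    rw [← k2, inv_smul_smul]; exact l2
  · show l (k⁻¹ • q) = q'
    rw [← k3, inv_smul_smul]; exact l3
  · rw [mul_smul, ← k1, inv_smul_smul, l1]

/-- A permutation between octads with three given points. -/
theorem exists_perm_three_in {p q r : GolayPt} (hpq : p ≠ q) (hpr : p ≠ r) (hqr : q ≠ r)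
    {o : Finset GolayPt} (ho : o ∈ octads) (hp : p ∈ o) (hq : q ∈ o) (hr : r ∈ o)
    {p' q' r' : GolayPt} (hpq' : p' ≠ q') (hpr' : p' ≠ r') (hqr' : q' ≠ r')
    {o' : Finset GolayPt} (ho' : o' ∈ octads) (hp' : p' ∈ o') (hq' : q' ∈ o') (hr' : r' ∈ o') :
    ∃ σ ∈ M24, σ p = p' ∧ σ q = q' ∧ σ r = r' ∧ σ • o = o' := by
  have two : ∀ {p q r : GolayPt}, p ≠ q → p ≠ r → q ≠ r → ∀ {o : Finset GolayPt}, o ∈ octads →
      p ∈ o → q ∈ o → r ∈ o → ∃ a b, a ∈ o ∧ b ∈ o ∧ Function.Injective ![p, q, r, a, b] := by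
    intro p q r hpq hpr hqr o ho hp hq hr
    have hcard : 2 ≤ (o \ {p, q, r}).card := by
      rw [Finset.card_sdiff_of_subset (by simp [Finset.insert_subset_iff, hp, hq, hr]), ho.2]
      simp [hpq, hpr, hqr]
    obtain ⟨T, hT, hT2⟩ := Finset.exists_subset_card_eq hcard
    obtain ⟨a, b, hab, rfl⟩ := Finset.card_eq_two.1 hT2
    simp only [Finset.insert_subset_iff, Finset.singleton_subset_iff, Finset.mem_sdiff,
      Finset.mem_insert, Finset.mem_singleton, not_or] at hT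
    obtain ⟨⟨ha, a1, a2, a3⟩, hb, b1, b2, b3⟩ := hT
    refine ⟨a, b, ha, hb, ?_⟩
    intro i j h
    fin_cases i <;> fin_cases j <;> simp_all [eq_comm]
  obtain ⟨a, b, ha, hb, hx⟩ := two hpq hpr hqr ho hp hq hr
  obtain ⟨a', b', ha', hb', hy⟩ := two hpq' hpr' hqr' ho' hp' hq' hr'
  obtain ⟨σ, hσ, h⟩ := exists_map_five_fun hx hy
  refine ⟨σ, hσ, h 0, h 1, h 2, octad_unique (s := Finset.univ.image ![p', q', r', a', b']) ?_
    (smul_mem_octads hσ ho) ho' ?_ ?_⟩
  · rw [Finset.card_image_of_injective _ hy]; simp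
  · intro z hz
    obtain ⟨i, -, rfl⟩ := Finset.mem_image.1 hz
    rw [← h i, ← Equiv.Perm.smul_def]
    refine Finset.smul_mem_smul_finset ?_
    fin_cases i <;> simpa
  · intro z hz
    obtain ⟨i, -, rfl⟩ := Finset.mem_image.1 hz
    fin_cases i <;> simpa

end CfsgLib.LeechTriples
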