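import Mathlib
import Cfsg.Agent.LeechTriples.Counts
import Cfsg.Agent.LeechTriples.PermOut
import Cfsg.Agent.LeechTriples.McLPoints

/-! The stabiliser of `(U, U', w)` has orbits of lengths 330, 462, 1232 on the 2025 points. -/

set_option autoImplicit false

namespace CfsgLib.LeechTriples

open Cfsg CfsgLib.Leech
open scoped Pointwise symmDiff

/-- The magnitudes of `w`. -/
def mag13 (i : GolayPt) : ℤ := if i = some 0 then 3 else 1

theorem sum_mag13 (f : GolayPt → ℤ) : ∑ i, mag13 i * f i = ∑ i, f i + 2 * f (some 0) := by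
  rw [sum_weighted f mag13 {some 0} fun i hi => by simp_all [mag13]]
  simp [mag13]

theorem third_mag {w : leechLattice} (hw : w ∈ thirdSet) :
    IsOdd w ∧ (∀ i, mag w i = mag13 i) ∧ ∀ i,
      rel w Spor.leechU i = (if i = none then 4 else if i = some 0 then -4 else 0) ∧
      rel w Spor.leechU' i = (if i = none then 4 else if i = some 0 then 4 else 0) := by
  obtain ⟨a0, a1, hodd, hpm⟩ := third_shape hw
  refine ⟨hodd, fun i => ?_, fun i => ?_⟩
  · rw [mag, mag13]
    rcases eq_or_ne i none with rfl | hi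
    · simp [a0]
    rcases eq_or_ne i (some 0) with rfl | hi'
    · simp [a1]
    · rw [if_neg hi']
      rcases hpm i (mem_restPts.2 ⟨hi, hi'⟩) with e | e <;> rw [e] <;> norm_num
  · constructor <;> simp only [rel, sg, Spor.leechU, Spor.leechU', Spor.vecU, Spor.vecU'] <;>
      split_ifs <;> simp_all

/-- Signed permutations fixing `U` and `U'`. -/
theorem third_mono {σ : Equiv.Perm GolayPt} (hσ : σ ∈ M24) (h0 : σ none = none)
    (h1 : σ (some 0) = some 0) {w w' : leechLattice} (hw : w ∈ thirdSet) (hw' : w' ∈ thirdSet) :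
    ∃ g : Co0, g • Spor.leechU = Spor.leechU ∧ g • Spor.leechU' = Spor.leechU' ∧ g • w = w' ∧
      ∀ y i, rel w' (g • y) (σ i) = rel w y i := by
  obtain ⟨hodd, hm, hr⟩ := third_mag hw
  obtain ⟨-, hm', hr'⟩ := third_mag hw'
  have hσ0 : ∀ i, σ i = none ↔ i = none := fun i => by
    conv_lhs => rw [← h0]
    exact σ.injective.eq_iff
  have hσ1 : ∀ i, σ i = some 0 ↔ i = some 0 := fun i => by
    conv_lhs => rw [← h1]
    exact σ.injective.eq_iff
  obtain ⟨g, hg, hrel⟩ := exists_mono hσ w w' hodd fun i => by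
    rw [hm', hm]; simp only [mag13, hσ1]
  refine ⟨g, ?_, ?_, hg, hrel⟩ <;> refine rel_inj (u := w') fun j => ?_ <;>
    obtain ⟨i, rfl⟩ := σ.surjective j <;> rw [hrel]
  · rw [(hr i).1, (hr' (σ i)).1]; simp only [hσ0, hσ1]
  · rw [(hr i).2, (hr' (σ i)).2]; simp only [hσ0, hσ1]

/-- The points. -/
def tPts (w : leechLattice) : Set leechLattice :=
  {y | nrm y = 32 ∧ ip Spor.leechU y = 0 ∧ ip w y = 16}

/-- Octads avoiding `∞` and `0`. -/
noncomputable def outOcts : Finset (Finset GolayPt) :=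
  Golay.octadSets.filter fun O => (none : GolayPt) ∉ O ∧ (some 0 : GolayPt) ∉ O

/-- An octad through `∞`, `0` with one further point. -/
noncomputable def inIdx : Finset ((_ : Finset GolayPt) × GolayPt) :=
  hsOcts.sigma fun O => O \ {none, some 0}

/-- An octad through `0` avoiding `∞` with one further point. -/
noncomputable def sIdx : Finset ((_ : Finset GolayPt) × GolayPt) :=
  (Golay.octadSets.filter fun O => (some 0 : GolayPt) ∈ O ∧ (none : GolayPt) ∉ O).sigma
    fun O => O \ {some 0}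

/-- Values for the last kind. -/
def tF3 (e : (_ : Finset GolayPt) × GolayPt) (r : GolayPt) : ℤ :=
  if r = e.2 then 3 else if r = some 0 then 1 else if r ∈ e.1 then -1 else 1

theorem mem_outOcts {O : Finset GolayPt} :
    O ∈ outOcts ↔ O ∈ octads ∧ (none : GolayPt) ∉ O ∧ (some 0 : GolayPt) ∉ O := by
  simp [outOcts, Golay.mem_octadSets]

theorem mem_inIdx {e : (_ : Finset GolayPt) × GolayPt} :
    e ∈ inIdx ↔ e.1 ∈ hsOcts ∧ e.2 ∈ e.1 ∧ e.2 ≠ none ∧ e.2 ≠ some 0 := by
  simp [inIdx]

theorem mem_sIdx {e : (_ : Finset GolayPt) × GolayPt} :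
    e ∈ sIdx ↔ e.1 ∈ octads ∧ (some 0 : GolayPt) ∈ e.1 ∧ (none : GolayPt) ∉ e.1 ∧
      e.2 ∈ e.1 ∧ e.2 ≠ some 0 := by
  simp [sIdx, Golay.mem_octadSets, and_assoc]

theorem card_inIdx : inIdx.card = 462 := by
  rw [inIdx, Finset.card_sigma, Finset.sum_congr rfl fun O hO => show
    (O \ {none, some 0}).card = 6 by
      obtain ⟨hO', a, b⟩ := mem_hsOcts.1 hO
      rw [Finset.card_sdiff_of_subset (by simp [Finset.insert_subset_iff, a, b]), hO'.2]
      simp,
    Finset.sum_const, card_hsOcts]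
  rfl

theorem card_zeroOcts :
    (Golay.octadSets.filter fun O => (some 0 : GolayPt) ∈ O ∧ (none : GolayPt) ∉ O).card = 176 := by
  rw [← M24Orbits.ncard_octads_in_out (by simp : (some 0 : GolayPt) ≠ none), ← Set.ncard_coe_finset]
  congr 1
  ext O
  simp [Golay.mem_octadSets]

theorem card_sIdx : sIdx.card = 1232 := by
  rw [sIdx, Finset.card_sigma, Finset.sum_congr rfl fun O hO => show
    (O \ {some 0}).card = 7 by
      rw [Finset.mem_filter, Golay.mem_octadSets] at hO
      rw [Finset.card_sdiff_of_subset (by simp [hO.2.1]), hO.1.2]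
      simp,
    Finset.sum_const, card_zeroOcts]
  rfl

theorem card_outOcts : outOcts.card = 330 := by
  have h := Finset.card_filter_add_card_filter_not (s := Golay.octadSets)
    (fun O => (none : GolayPt) ∈ O)
  rw [Golay.card_octadSets] at h
  have h1 : (Golay.octadSets.filter fun O => (none : GolayPt) ∈ O).card = 253 := by
    rw [← Golay.octads_through_one {(none : GolayPt)} rfl]
    refine congrArg Finset.card (Finset.filter_congr fun O _ => ?_)
    simp
  have h2 := Finset.card_filter_add_card_filter_not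
    (s := Golay.octadSets.filter fun O => (none : GolayPt) ∉ O) (fun O => (some 0 : GolayPt) ∈ O)
  rw [Finset.filter_filter, Finset.filter_filter] at h2
  have h3 : (Golay.octadSets.filter fun O => (none : GolayPt) ∉ O ∧ (some 0 : GolayPt) ∈ O).card =
      176 := by
    rw [← card_zeroOcts]
    exact congrArg Finset.card (Finset.filter_congr fun O _ => and_comm)
  rw [outOcts]
  omega

/-- The kind with product 0. -/
def tA (w : leechLattice) : Set leechLattice :=
  {y | ∃ O ∈ outOcts, ∀ r, rel w y r = hsF2 O r}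

/-- The kind with product 16. -/
def tB (w : leechLattice) : Set leechLattice :=
  {y | ∃ e ∈ inIdx, ∀ r, rel w y r = mF2 e r}

/-- The kind with product 8. -/
def tC (w : leechLattice) : Set leechLattice :=
  {y | ∃ e ∈ sIdx, ∀ r, rel w y r = tF3 e r}

section

variable {w : leechLattice} (hw : w ∈ thirdSet)
include hw

theorem t_ip (y : leechLattice) :
    ip Spor.leechU y = 4 * (rel w y none - rel w y (some 0)) ∧
      ip Spor.leechU' y = 4 * (rel w y none + rel w y (some 0)) ∧
        ip w y = ∑ r, rel w y r + 2 * rel w y (some 0) := by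
  obtain ⟨a0, a1, -, -⟩ := third_shape hw
  obtain ⟨-, hm, -⟩ := third_mag hw
  refine ⟨?_, ?_, ?_⟩
  · rw [ip_leechU, rel, rel, a0, a1]; norm_num [sg]
  · rw [ip_leechU', rel, rel, a0, a1]; norm_num [sg]; ring
  · rw [ip_rel, ← sum_mag13]; simp only [hm]

theorem t_class {y : leechLattice} (hy : y ∈ tPts w) :
    y = Spor.leechU' ∨ y ∈ tA w ∨ y ∈ tB w ∨ y ∈ tC w := by
  obtain ⟨hy32, hyU, hyw⟩ := hy
  obtain ⟨hodd, hm, hr⟩ := third_mag hw
  obtain ⟨e1, -, e3⟩ := t_ip hw y
  rw [e1] at hyU
  rw [e3] at hyw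
  set f := rel w y with hf
  have he : f (some 0) = f none := by omega
  have hsh : IsTwo f ∨ IsOct f ∨ IsThree f := shape32 w y hy32
  rcases hsh with ⟨i, j, hij, hi, hj, hk⟩ | ⟨O, hO, hOv, hO0⟩ | ⟨i, hi, hk⟩
  · left
    have hs := sum_two hij hk
    have h0 : f none ≠ 0 := fun h => by omega
    have p : none = i ∨ none = j := by
      by_contra! hp; exact h0 (hk none hp.1 hp.2)
    have q : some 0 = i ∨ some 0 = j := by
      by_contra! hp; exact h0 (he ▸ hk (some 0) hp.1 hp.2)
    refine rel_inj (u := w) fun r => ?_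
    rw [(hr r).2]
    have hf4 : f none = 4 := by
      rcases p with rfl | rfl <;> rcases q with e | e
      · simp at e
      · subst e; omega
      · subst e; omega
      · simp at e
    by_cases r0 : r = none
    · subst r0; rw [if_pos rfl]; exact hf4
    by_cases r1 : r = some 0
    · subst r1; rw [if_neg r0, if_pos rfl]; exact he.trans hf4
    rw [if_neg r0, if_neg r1]
    rcases p with rfl | rfl <;> rcases q with e | e
    · simp at e
    · exact hk r r0 (e ▸ r1)
    · exact hk r (e ▸ r1) r0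
    · simp at e
  · have hs := sum_oct hO hOv hO0
    by_cases hnO : none ∈ O
    · have f2 : f none = 2 ∧ (negSet O f).card = 1 := by
        rcases hOv none hnO with e | e <;> constructor <;> omega
      have h0O : some 0 ∈ O := by
        by_contra h
        have := hO0 _ h
        omega
      obtain ⟨p, hp⟩ := Finset.card_eq_one.1 f2.2
      have hpv : ∀ r, r ∈ negSet O f ↔ r = p := fun r => by rw [hp, Finset.mem_singleton]
      have hp' : p ∈ O ∧ f p < 0 := Finset.mem_filter.1 ((hpv p).2 rfl)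
      right; right; left
      refine ⟨⟨O, p⟩, mem_inIdx.2 ⟨mem_hsOcts.2 ⟨hO, hnO, h0O⟩, hp'.1, ?_, ?_⟩, fun r => ?_⟩
      · intro e
        have h2 : f p = f none := congrArg f e
        omega
      · intro e
        have h2 : f p = f (some 0) := congrArg f e
        omega
      rw [mF2]
      show f r = if r = p then -2 else if r ∈ O then 2 else 0
      split_ifs with h1 h2
      · subst h1
        have := hOv _ hp'.1
        omega
      · rcases hOv r h2 with e | e
        · exact e
        · exact absurd ((hpv r).1 (Finset.mem_filter.2 ⟨h2, by omega⟩)) h1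
      · exact hO0 r h2
    · have hn0 := hO0 none hnO
      have h0O : some 0 ∉ O := fun h => by have := hOv _ h; omega
      have hN : negSet O f = ∅ := Finset.card_eq_zero.1 (by omega)
      right; left
      refine ⟨O, mem_outOcts.2 ⟨hO, hnO, h0O⟩, fun r => ?_⟩
      rw [hsF2]
      show f r = if r ∈ O then 2 else 0
      split_ifs with h
      · rcases hOv r h with e | e
        · exact e
        · have : r ∈ negSet O f := Finset.mem_filter.2 ⟨h, by omega⟩
          simp [hN] at this
      · exact hO0 r h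
  · right; right; right
    have hs := sum_three hk
    set N := negSet (Finset.univ.erase i) f with hN
    have hin : i ≠ none := by
      rintro rfl
      have := hk (some 0) (by simp)
      omega
    have hi0 : i ≠ some 0 := by
      rintro rfl
      have := hk none hin.symm
      omega
    have hn1 := hk none hin.symm
    have hoddy : IsOdd y := by
      rcases parity_all y with h | h
      · have := h i
        have e : rel w y i = 3 ∨ rel w y i = -3 := hi
        simp only [rel, sg] at e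
        split_ifs at e <;> omega
      · exact h
    have hD := diffSet_mem_odd hodd hoddy
    have hmem : ∀ r, r ∈ diffSet (mag w) (rel w y) ↔
        (r = i ∧ f i = 3) ∨ (r = some 0 ∧ f (some 0) = 1) ∨ (r ≠ some 0 ∧ r ∈ N) := by
      intro r
      simp only [diffSet, Finset.mem_filter, Finset.mem_univ, true_and, hm, mag13,
        show rel w y r = f r from rfl, hN, negSet, Finset.mem_erase]
      rcases eq_or_ne r i with rfl | hri
      · rw [if_neg hi0]
        rcases hi with e | e <;> simp [e, hi0]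
      rcases eq_or_ne r (some 0) with rfl | hr0
      · rw [if_pos rfl]
        rcases hk _ hri with e | e <;> simp [e, hri]
      · rw [if_neg hr0]
        rcases hk r hri with e | e <;> simp [e, hri, hr0]
    have hsmall : ∀ s : Finset GolayPt, diffSet (mag w) (rel w y) ⊆ s → s.card ≤ 7 →
        ∀ r, r ∈ diffSet (mag w) (rel w y) → False := fun s hs hc r hr => by
      have := eight_le_code hD ⟨r, hr⟩
      have := Finset.card_le_card hs
      omega
    have hnN : ∀ r, f r = -1 → r ≠ i → r ∈ N := fun r h h' =>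
      Finset.mem_filter.2 ⟨Finset.mem_erase.2 ⟨h', Finset.mem_univ r⟩, by omega⟩
    rcases hn1 with hn | hn
    · rcases hi with hfi | hfi
      · have hN6 : N.card = 6 := by omega
        have hiN : i ∉ N := fun h => (Finset.mem_erase.1 (Finset.mem_filter.1 h).1).1 rfl
        have h0N : some 0 ∉ N := fun h => by have := (Finset.mem_filter.1 h).2; omega
        have hDeq : diffSet (mag w) (rel w y) = insert i (insert (some 0) N) := by
          ext r
          rw [hmem]
          simp only [Finset.mem_insert]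
          constructor
          · rintro (⟨h, -⟩ | ⟨h, -⟩ | ⟨-, h⟩) <;> simp [h]
          · rintro (h | h | h)
            · exact Or.inl ⟨h, hfi⟩
            · exact Or.inr (Or.inl ⟨h, he.trans hn⟩)
            · exact Or.inr (Or.inr ⟨fun e => h0N (e ▸ h), h⟩)
        refine ⟨⟨insert i (insert (some 0) N), i⟩, mem_sIdx.2 ⟨⟨hDeq ▸ hD, ?_⟩, by simp, ?_,
          by simp, hi0⟩, fun r => ?_⟩
        · rw [Finset.card_insert_of_notMem (by simp [hi0, hiN]),
            Finset.card_insert_of_notMem h0N, hN6]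
        · simp only [Finset.mem_insert, not_or]
          exact ⟨hin.symm, by simp, fun h => by
            have := (Finset.mem_filter.1 h).2; omega⟩
        show f r = _
        rw [tF3]
        split_ifs with h1 h2 h3
        · subst h1; exact hfi
        · subst h2; exact he.trans hn
        · simp only [Finset.mem_insert] at h3
          rcases h3 with h3 | h3 | h3
          · exact absurd h3 h1
          · exact absurd h3 h2
          · have := (Finset.mem_filter.1 h3).2
            have := hk r h1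
            omega
        · rcases hk r h1 with e | e
          · exact e
          · exact absurd (Finset.mem_insert.2 (Or.inr (Finset.mem_insert.2
              (Or.inr (hnN r e h1))))) h3
      · exfalso
        refine hsmall (insert (some 0) N) (fun r hr => ?_) ?_ (some 0)
          ((hmem _).2 (Or.inr (Or.inl ⟨rfl, he.trans hn⟩)))
        · rcases (hmem r).1 hr with ⟨-, h⟩ | ⟨h, -⟩ | ⟨-, h⟩
          · omega
          · simp [h]
          · simp [h]
        · have := Finset.card_insert_le (some 0) N; omega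
    · exfalso
      have h0N := hnN _ (he.trans hn) hi0.symm
      have hnoneN := hnN _ hn hin.symm
      have h2 : 2 ≤ N.card := by
        rw [← Finset.card_pair (show (none : GolayPt) ≠ some 0 by simp)]
        exact Finset.card_le_card (by simp [Finset.insert_subset_iff, h0N, hnoneN])
      refine hsmall (insert i N) (fun r hr => ?_) ?_ none
        ((hmem _).2 (Or.inr (Or.inr ⟨by simp, hnoneN⟩)))
      · rcases (hmem r).1 hr with ⟨h, -⟩ | ⟨-, h⟩ | ⟨-, h⟩
        · simp [h]
        · omega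
        · simp [h]
      · have := Finset.card_insert_le i N
        rcases hi with e | e <;> omega

theorem t_A {y : leechLattice} (hy : y ∈ tA w) : y ∈ tPts w ∧ ip Spor.leechU' y = 0 := by
  obtain ⟨O, hO, h⟩ := hy
  obtain ⟨hO', a, b⟩ := mem_outOcts.1 hO
  obtain ⟨e1, e2, e3⟩ := t_ip hw y
  have v0 : hsF2 O none = 0 ∧ hsF2 O (some 0) = 0 := by simp [hsF2, a, b]
  refine ⟨⟨?_, ?_, ?_⟩, ?_⟩
  · rw [nrm_rel w, Finset.sum_congr rfl fun r _ => by rw [h r]]
    simp only [hsF2, ite_pow, ne_eq, OfNat.ofNat_ne_zero, not_false_eq_true, zero_pow,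
      Finset.sum_ite_mem, Finset.univ_inter, Finset.sum_const, hO'.2]
    norm_num
  · rw [e1, h, h, v0.1, v0.2]; norm_num
  · rw [e3, Finset.sum_congr rfl fun r _ => h r, sum_hsF2 hO', h, v0.2]; norm_num
  · rw [e2, h, h, v0.1, v0.2]; norm_num

theorem t_B {y : leechLattice} (hy : y ∈ tB w) : y ∈ tPts w ∧ ip Spor.leechU' y = 16 := by
  obtain ⟨⟨O, p⟩, he, h⟩ := hy
  obtain ⟨hO, hp, pn, p0⟩ := mem_inIdx.1 he
  obtain ⟨hO', a, b⟩ := mem_hsOcts.1 hO
  obtain ⟨e1, e2, e3⟩ := t_ip hw y
  obtain ⟨q, hq, hq'⟩ : ∃ q ∈ O, q ≠ p ∧ q ≠ none ∧ q ≠ some 0 := by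
    obtain ⟨q, hq⟩ := Finset.card_pos.1 (show 0 < (O \ {p, none, some 0}).card by
      rw [Finset.card_sdiff_of_subset (by simp [Finset.insert_subset_iff, hp, a, b]), hO'.2]
      simp [pn, p0])
    simp only [Finset.mem_sdiff, Finset.mem_insert, Finset.mem_singleton, not_or] at hq
    exact ⟨q, hq.1, hq.2⟩
  obtain ⟨s1, s2⟩ := sum_mF2 (m := q) (e := ⟨O, p⟩)
    (mem_bIdx.2 ⟨mem_octsIn.2 ⟨hO', a, b, hq⟩, hp, pn, p0, Ne.symm hq'.1⟩)
  have v0 : mF2 ⟨O, p⟩ none = 2 ∧ mF2 ⟨O, p⟩ (some 0) = 2 := by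
    simp [mF2, pn.symm, p0.symm, a, b]
  refine ⟨⟨?_, ?_, ?_⟩, ?_⟩
  · rw [nrm_rel w, Finset.sum_congr rfl fun r _ => by rw [h r], s2]
  · rw [e1, h, h, v0.1, v0.2]; norm_num
  · rw [e3, Finset.sum_congr rfl fun r _ => h r, s1, h, v0.2]; norm_num
  · rw [e2, h, h, v0.1, v0.2]; norm_num

theorem t_C {y : leechLattice} (hy : y ∈ tC w) : y ∈ tPts w ∧ ip Spor.leechU' y = 8 := by
  obtain ⟨⟨O, i⟩, he, h⟩ := hy
  obtain ⟨hO, a, b, hi, i0⟩ := mem_sIdx.1 he
  obtain ⟨e1, e2, e3⟩ := t_ip hw y
  have hin : i ≠ none := fun e => b (e ▸ hi)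
  have hH : O ∈ octsOut (some 0) i none := mem_octsOut.2 ⟨hO, a, hi, b⟩
  have hrot : ∀ r, rel w y r = (if r = none then 1 else if r = i then 3 else
      mF3 none (some 0) i O r) := fun r => by
    rw [h r, tF3, mF3]
    show (if r = i then (3 : ℤ) else if r = some 0 then 1 else if r ∈ O then -1 else 1) = _
    split_ifs <;> simp_all
  have hb : (∑ r, rel w y r = 14) ∧ (∑ r, rel w y r ^ 2 = 32) := by
    have k1 := sum_mF3 (by simp : (none : GolayPt) ≠ some 0) hin.symm i0.symm hH
    have k2 := sum_sq_mF3 (by simp : (none : GolayPt) ≠ some 0) hin.symm i0.symm hH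
    obtain ⟨va, -, vc⟩ := mF3_values (by simp : (none : GolayPt) ≠ some 0) hin.symm i0.symm hH
    have hn : rel w y none = 1 := by rw [hrot]; simp
    have hvi : rel w y i = 3 := by rw [hrot]; simp [hin]
    have hsame : ∀ r, r ≠ none → r ≠ i → rel w y r = mF3 none (some 0) i O r := fun r p q => by
      rw [hrot, if_neg p, if_neg q]
    constructor
    · have := sum_two (f := fun r => rel w y r - mF3 none (some 0) i O r) hin.symm
        fun r p q => by simp [hsame r p q]
      rw [Finset.sum_sub_distrib, k1, hn, hvi, va, vc] at this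
      omega
    · have := sum_two (f := fun r => rel w y r ^ 2 - mF3 none (some 0) i O r ^ 2) hin.symm
        fun r p q => by simp [hsame r p q]
      rw [Finset.sum_sub_distrib, k2, hn, hvi, va, vc] at this
      omega
  have v0 : tF3 ⟨O, i⟩ none = 1 ∧ tF3 ⟨O, i⟩ (some 0) = 1 := by
    simp [tF3, hin.symm, i0.symm, b]
  refine ⟨⟨by rw [nrm_rel w, hb.2], ?_, ?_⟩, ?_⟩
  · rw [e1, h, h, v0.1, v0.2]; norm_num
  · rw [e3, hb.1, h, v0.2]; norm_num
  · rw [e2, h, h, v0.1, v0.2]; norm_num

theorem ncard_tA : (tA w).ncard = 330 := by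
  obtain ⟨hodd, hm, -⟩ := third_mag hw
  refine (ncard_param w outOcts hsF2 ?_ fun O hO => ?_).trans card_outOcts
  · intro A _ B _ h
    ext r
    have := congrFun h r
    simp only [hsF2] at this
    split_ifs at this with h1 h2 <;> simp_all
  · obtain ⟨hO', a, b⟩ := mem_outOcts.1 hO
    refine exists_even hodd _ (fun r => ?_) ?_ ?_
    · simp only [hsF2]; split_ifs <;> norm_num
    · have : diffSet (fun _ => 0) (hsF2 O) = O := by
        ext r; rw [diffSet, Finset.mem_filter]; simp only [Finset.mem_univ, true_and, hsF2]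
        split_ifs with q <;> simp [q]
      rw [this]; exact hO'.1
    · simp only [hm, sum_mag13, sum_hsF2 hO']
      simp [hsF2, b]

theorem ncard_tB : (tB w).ncard = 462 := by
  obtain ⟨hodd, hm, -⟩ := third_mag hw
  refine (ncard_param w inIdx mF2 ?_ fun e he => ?_).trans card_inIdx
  · rintro ⟨O, p⟩ ha ⟨O', p'⟩ hb h
    obtain ⟨-, hp, -, -⟩ := mem_inIdx.1 ha
    obtain ⟨-, hp', -, -⟩ := mem_inIdx.1 hb
    have hpp : p = p' := by
      by_contra hne
      have := congrFun h p
      simp only [mF2, if_true, if_neg hne] at this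
      split_ifs at this <;> omega
    subst hpp
    have : O = O' := by
      ext r
      have := congrFun h r
      simp only [mF2] at this
      rcases eq_or_ne r p with rfl | hr
      · exact iff_of_true hp hp'
      · rw [if_neg hr, if_neg hr] at this
        split_ifs at this with h1 h2 <;> simp_all
    subst this; rfl
  · obtain ⟨O, p⟩ := e
    obtain ⟨hO, hp, pn, p0⟩ := mem_inIdx.1 he
    obtain ⟨hO', a, b⟩ := mem_hsOcts.1 hO
    refine exists_even hodd _ (fun r => ?_) ?_ ?_
    · simp only [mF2]; split_ifs <;> norm_num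
    · have : diffSet (fun _ => 0) (mF2 ⟨O, p⟩) = O := by
        ext r; rw [diffSet, Finset.mem_filter]; simp only [Finset.mem_univ, true_and, mF2]
        rcases eq_or_ne r p with rfl | hr
        · simp [hp]
        · rw [if_neg hr]; split_ifs with q <;> simp [q]
      rw [this]; exact hO'.1
    · obtain ⟨q, hq⟩ := Finset.card_pos.1 (show 0 < (O \ {p, none, some 0}).card by
        rw [Finset.card_sdiff_of_subset (by simp [Finset.insert_subset_iff, hp, a, b]), hO'.2]
        simp [pn, p0])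
      simp only [Finset.mem_sdiff, Finset.mem_insert, Finset.mem_singleton, not_or] at hq
      simp only [hm, sum_mag13, (sum_mF2 (m := q) (e := ⟨O, p⟩)
        (mem_bIdx.2 ⟨mem_octsIn.2 ⟨hO', a, b, hq.1⟩, hp, pn, p0, Ne.symm hq.2.1⟩)).1]
      simp [mF2, p0.symm, b]

theorem ncard_tC : (tC w).ncard = 1232 := by
  obtain ⟨hodd, hm, -⟩ := third_mag hw
  refine (ncard_param w sIdx tF3 ?_ fun e he => ?_).trans card_sIdx
  · rintro ⟨O, p⟩ ha ⟨O', p'⟩ hb h
    obtain ⟨-, a0, -, hp, -⟩ := mem_sIdx.1 ha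
    obtain ⟨-, b0, -, hp', -⟩ := mem_sIdx.1 hb
    have hpp : p = p' := by
      by_contra hne
      have := congrFun h p
      simp only [tF3, if_true, if_neg hne] at this
      split_ifs at this <;> omega
    subst hpp
    have : O = O' := by
      ext r
      have := congrFun h r
      simp only [tF3] at this
      rcases eq_or_ne r p with rfl | hr
      · exact iff_of_true hp hp'
      rcases eq_or_ne r (some 0) with rfl | hr0
      · exact iff_of_true a0 b0
      · rw [if_neg hr, if_neg hr, if_neg hr0, if_neg hr0] at this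
        split_ifs at this with h1 h2 <;> simp_all
    subst this; rfl
  · obtain ⟨O, i⟩ := e
    obtain ⟨hO, a, b, hi, i0⟩ := mem_sIdx.1 he
    have hi : i ∈ O := hi
    have i0 : i ≠ some 0 := i0
    have hin : i ≠ none := fun e => b (e ▸ hi)
    refine exists_odd hodd (by rw [hw.1]; norm_num) _ (fun r => ?_) ?_ ?_
    · simp only [tF3]; split_ifs <;> norm_num
    · have : diffSet (mag w) (tF3 ⟨O, i⟩) = O := by
        ext r; rw [diffSet, Finset.mem_filter]
        simp only [Finset.mem_univ, true_and, hm, mag13, tF3]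
        rcases eq_or_ne r i with rfl | hr
        · simp [hi, i0]
        rw [if_neg hr]
        rcases eq_or_ne r (some 0) with rfl | hr0
        · rw [if_pos rfl, if_pos rfl]; simp [a]
        · rw [if_neg hr0, if_neg hr0]; split_ifs with q <;> simp [q]
      rw [this]; exact hO.1
    · have hne : ∀ k, k ≠ i → tF3 ⟨O, i⟩ k = 1 ∨ tF3 ⟨O, i⟩ k = -1 := fun k hk => by
        simp only [tF3, if_neg hk]; split_ifs <;> simp
      have hN : negSet (Finset.univ.erase i) (tF3 ⟨O, i⟩) = O \ {i, some 0} := by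
        ext r
        rw [negSet, Finset.mem_filter]
        simp only [Finset.mem_erase, Finset.mem_univ, and_true, Finset.mem_sdiff,
          Finset.mem_insert, Finset.mem_singleton, tF3]
        rcases eq_or_ne r i with rfl | hr
        · simp
        rw [if_neg hr]
        rcases eq_or_ne r (some 0) with rfl | hr0
        · simp
        · rw [if_neg hr0]; split_ifs with q <;> simp [q, hr, hr0]
      simp only [hm, sum_mag13, sum_three hne, hN]
      rw [Finset.card_sdiff_of_subset (by simp [Finset.insert_subset_iff, hi, a]), hO.2,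
        Finset.card_pair i0]
      simp [tF3, i0.symm]

theorem t_trans {y y' : leechLattice}
    (h : (y ∈ tA w ∧ y' ∈ tA w) ∨ (y ∈ tB w ∧ y' ∈ tB w) ∨ (y ∈ tC w ∧ y' ∈ tC w)) :
    ∃ g : Co0, g • Spor.leechU = Spor.leechU ∧ g • Spor.leechU' = Spor.leechU' ∧ g • w = w ∧
      g • y = y' := by
  rcases h with ⟨⟨O, hO, hr⟩, ⟨O', hO', hr'⟩⟩ | ⟨⟨⟨O, p⟩, hO, hr⟩, ⟨⟨O', p'⟩, hO', hr'⟩⟩ |
    ⟨⟨⟨O, p⟩, hO, hr⟩, ⟨⟨O', p'⟩, hO', hr'⟩⟩
  · obtain ⟨o1, o2, o3⟩ := mem_outOcts.1 hO
    obtain ⟨p1, p2, p3⟩ := mem_outOcts.1 hO'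
    obtain ⟨σ, hσ, s0, s1, sO⟩ := exists_perm_out_two (by simp) o1 o2 o3 (by simp) p1 p2 p3
    obtain ⟨g, g1, g2, g3, g4⟩ := third_mono hσ s0 s1 hw hw
    refine ⟨g, g1, g2, g3, rel_inj (u := w) fun r => ?_⟩
    obtain ⟨t, rfl⟩ := σ.surjective r
    rw [g4, hr, hr']
    simp only [hsF2, ← sO, ← Equiv.Perm.smul_def, Finset.smul_mem_smul_finset_iff]
  · obtain ⟨q1, q2, q3, q4⟩ := mem_inIdx.1 hO
    obtain ⟨o1, o2, o3⟩ := mem_hsOcts.1 q1
    obtain ⟨r1, r2, r3, r4⟩ := mem_inIdx.1 hO'
    obtain ⟨p1, p2, p3⟩ := mem_hsOcts.1 r1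
    obtain ⟨σ, hσ, s0, s1, sp, sO⟩ := exists_perm_three_in (by simp) q3.symm q4.symm o1 o2 o3 q2
      (by simp) r3.symm r4.symm p1 p2 p3 r2
    obtain ⟨g, g1, g2, g3, g4⟩ := third_mono hσ s0 s1 hw hw
    refine ⟨g, g1, g2, g3, rel_inj (u := w) fun r => ?_⟩
    obtain ⟨t, rfl⟩ := σ.surjective r
    rw [g4, hr, hr']
    have sp : σ p = p' := sp
    have sO : σ • O = O' := sO
    have e1 : σ t = p' ↔ t = p := by conv_lhs => rw [← sp, σ.injective.eq_iff]
    have e2 : σ t ∈ O' ↔ t ∈ O := by
      rw [← sO, ← Equiv.Perm.smul_def, Finset.smul_mem_smul_finset_iff]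
    simp only [mF2, e1, e2]
  · obtain ⟨o1, o2, o3, o4, o5⟩ := mem_sIdx.1 hO
    obtain ⟨p1, p2, p3, p4, p5⟩ := mem_sIdx.1 hO'
    obtain ⟨σ, hσ, s1, sp, s0, sO⟩ :=
      exists_perm_two_out (Ne.symm o5) o1 o2 o4 o3 (Ne.symm p5) p1 p2 p4 p3
    obtain ⟨g, g1, g2, g3, g4⟩ := third_mono hσ s0 s1 hw hw
    refine ⟨g, g1, g2, g3, rel_inj (u := w) fun r => ?_⟩
    obtain ⟨t, rfl⟩ := σ.surjective r
    rw [g4, hr, hr']
    have sp : σ p = p' := sp
    have sO : σ • O = O' := sO
    have e1 : σ t = p' ↔ t = p := by conv_lhs => rw [← sp, σ.injective.eq_iff]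
    have e3 : σ t = some 0 ↔ t = some 0 := by conv_lhs => rw [← s1, σ.injective.eq_iff]
    have e2 : σ t ∈ O' ↔ t ∈ O := by
      rw [← sO, ← Equiv.Perm.smul_def, Finset.smul_mem_smul_finset_iff]
    simp only [tF3, e1, e2, e3]

theorem t_values {y : leechLattice} (hy : y ∈ tPts w) :
    (ip Spor.leechU' y = 0 → y ∈ tA w) ∧ (ip Spor.leechU' y = 16 → y ∈ tB w) ∧
      (ip Spor.leechU' y = 8 → y ∈ tC w) := by
  have h32 : ip Spor.leechU' Spor.leechU' = 32 := by rw [ip_self, nrm_leechU']
  rcases t_class hw hy with rfl | h | h | h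
  · rw [h32]; norm_num
  · have e := (t_A hw h).2
    rw [e]; norm_num; exact h
  · have e := (t_B hw h).2
    rw [e]; norm_num; exact h
  · have e := (t_C hw h).2
    rw [e]; norm_num; exact h

theorem orbit_eq {K : Set leechLattice} {k : ℤ}
    (hK : ∀ y ∈ K, y ∈ tPts w ∧ ip Spor.leechU' y = k)
    (hback : ∀ y ∈ tPts w, ip Spor.leechU' y = k → y ∈ K)
    (htr : ∀ y ∈ K, ∀ y' ∈ K, ∃ g : Co0, g • Spor.leechU = Spor.leechU ∧
      g • Spor.leechU' = Spor.leechU' ∧ g • w = w ∧ g • y = y')
    {y₀ : leechLattice} (h₀ : y₀ ∈ K) :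
    {y | ∃ g : Co0, g • Spor.leechU = Spor.leechU ∧ g • Spor.leechU' = Spor.leechU' ∧
      g • w = w ∧ g • y₀ = y} = K := by
  ext y
  refine ⟨?_, fun h => htr y₀ h₀ y h⟩
  rintro ⟨g, g1, g2, g3, rfl⟩
  obtain ⟨⟨a, b, c⟩, d⟩ := hK y₀ h₀
  refine hback _ ⟨by rw [nrm_smul, a], ?_, ?_⟩ ?_
  · rw [← g1, ip_smul, b]
  · rw [← g3, ip_smul, c]
  · rw [← g2, ip_smul, d]

theorem t_orbits : ∃ y₁ ∈ tPts w, ∃ y₂ ∈ tPts w, ∃ y₃ ∈ tPts w,
    {y | ∃ g : Co0, g • Spor.leechU = Spor.leechU ∧ g • Spor.leechU' = Spor.leechU' ∧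
      g • w = w ∧ g • y₁ = y}.ncard = 330 ∧
    {y | ∃ g : Co0, g • Spor.leechU = Spor.leechU ∧ g • Spor.leechU' = Spor.leechU' ∧
      g • w = w ∧ g • y₂ = y}.ncard = 462 ∧
    {y | ∃ g : Co0, g • Spor.leechU = Spor.leechU ∧ g • Spor.leechU' = Spor.leechU' ∧
      g • w = w ∧ g • y₃ = y}.ncard = 1232 := by
  obtain ⟨a, ha⟩ := Set.nonempty_of_ncard_ne_zero (s := tA w) (by rw [ncard_tA hw]; norm_num)
  obtain ⟨b, hb⟩ := Set.nonempty_of_ncard_ne_zero (s := tB w) (by rw [ncard_tB hw]; norm_num)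
  obtain ⟨c, hc⟩ := Set.nonempty_of_ncard_ne_zero (s := tC w) (by rw [ncard_tC hw]; norm_num)
  refine ⟨a, (t_A hw ha).1, b, (t_B hw hb).1, c, (t_C hw hc).1, ?_, ?_, ?_⟩
  · rw [orbit_eq hw (fun y h => t_A hw h) (fun y h => (t_values hw h).1)
      (fun y h y' h' => t_trans hw (Or.inl ⟨h, h'⟩)) ha, ncard_tA hw]
  · rw [orbit_eq hw (fun y h => t_B hw h) (fun y h => (t_values hw h).2.1)
      (fun y h y' h' => t_trans hw (Or.inr (Or.inl ⟨h, h'⟩))) hb, ncard_tB hw]
  · rw [orbit_eq hw (fun y h => t_C hw h) (fun y h => (t_values hw h).2.2)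
      (fun y h y' h' => t_trans hw (Or.inr (Or.inr ⟨h, h'⟩))) hc, ncard_tC hw]

end

end CfsgLib.LeechTriples
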