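import Mathlib
import Cfsg.Agent.LeechTriples.Rank4
import Cfsg.Agent.LeechTriples.HSTransfer

/-! Transfer of the rank 4 action on 2025 points to a general configuration. -/

set_option autoImplicit false

namespace CfsgLib.LeechTriples

open Cfsg CfsgLib.Leech
open scoped Pointwise

/-- The points of the action. -/
def fourSet (v w : leechLattice) : Set leechLattice :=
  {x : leechLattice | sqNorm (x : GolayPt → ℤ) = 32 ∧
    dotInt (v : GolayPt → ℤ) (x : GolayPt → ℤ) = 0 ∧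
      dotInt (w : GolayPt → ℤ) (x : GolayPt → ℤ) = 16}

theorem mem_fourSet {v w y : leechLattice} :
    y ∈ fourSet v w ↔ nrm y = 32 ∧ ip v y = 0 ∧ ip w y = 16 := Iff.rfl

theorem ncard_fourSet {v w : leechLattice} (hv : nrm v = 32) (hw : nrm w = 32)
    (h : ip v w = -8) : (fourSet v w).ncard = 2025 := by
  rw [← card_orthSixteen (v := v + w) (x := v) (by rw [nrm_add, hv, hw, h]; norm_num) hv
    (by rw [ip_add_right, ip_self, hv, h]; norm_num), ← Set.ncard_coe_finset]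
  congr 1
  ext y
  rw [Finset.mem_coe, mem_orthSixteen, mem_fourSet, ip_comm (v + w) y, ip_add_right, ip_comm y v,
    ip_comm y w]
  constructor <;> rintro ⟨h1, h2, h3⟩ <;> exact ⟨h1, h2, by omega⟩

theorem four_norm {v w x : leechLattice} (hv : nrm v = 32) (hw : nrm w = 32)
    (h : ip v w = -8) (hx : x ∈ fourSet v w) :
    ∃ g : Co0, g • v = Spor.leechU ∧ g • x = Spor.leechU' ∧ g • w ∈ thirdSet ∧
      ∀ y, y ∈ fourSet v w ↔ g • y ∈ tPts (g • w) := by
  obtain ⟨x1, x2, x3⟩ := mem_fourSet.1 hx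
  obtain ⟨g, g1, g2⟩ := exists_pair_base v x hv x1 x2
  refine ⟨g, g1, g2, ⟨by rw [nrm_smul, hw], by rw [← g1, ip_smul, h],
    by rw [← g2, ip_smul, ip_comm, x3]⟩, fun y => ?_⟩
  rw [mem_fourSet, tPts, Set.mem_setOf_eq, nrm_smul, ← g1, ip_smul, ip_smul]

theorem fourSet_transitive {v w x x' : leechLattice} (hv : nrm v = 32) (hw : nrm w = 32)
    (h : ip v w = -8) (hx : x ∈ fourSet v w) (hx' : x' ∈ fourSet v w) :
    ∃ g : Co0, g • v = v ∧ g • w = w ∧ g • x = x' := by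
  obtain ⟨g, g1, g2, g3, -⟩ := four_norm hv hw h hx
  obtain ⟨k, k1, k2, k3, -⟩ := four_norm hv hw h hx'
  obtain ⟨j, j1, j2, j3, -⟩ := third_mono (σ := 1) (one_mem M24) rfl rfl g3 k3
  exact ⟨k⁻¹ * j * g, by rw [mul_smul, mul_smul, g1, j1, ← k1, inv_smul_smul],
    by rw [mul_smul, mul_smul, j3, inv_smul_smul],
    by rw [mul_smul, mul_smul, g2, j2, ← k2, inv_smul_smul]⟩

theorem fourSet_orbits {v w x : leechLattice} (hv : nrm v = 32) (hw : nrm w = 32)
    (h : ip v w = -8) (hx : x ∈ fourSet v w) :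
    ∃ y₁ ∈ fourSet v w, ∃ y₂ ∈ fourSet v w, ∃ y₃ ∈ fourSet v w,
      (MulAction.orbit ↥(MulAction.stabilizer Co0 v ⊓ MulAction.stabilizer Co0 w ⊓
        MulAction.stabilizer Co0 x) y₁).ncard = 330 ∧
      (MulAction.orbit ↥(MulAction.stabilizer Co0 v ⊓ MulAction.stabilizer Co0 w ⊓
        MulAction.stabilizer Co0 x) y₂).ncard = 462 ∧
      (MulAction.orbit ↥(MulAction.stabilizer Co0 v ⊓ MulAction.stabilizer Co0 w ⊓
        MulAction.stabilizer Co0 x) y₃).ncard = 1232 := by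
  obtain ⟨g, g1, g2, g3, g4⟩ := four_norm hv hw h hx
  obtain ⟨a, ha, b, hb, c, hc, e1, e2, e3⟩ := t_orbits g3
  have key : ∀ z : leechLattice, (MulAction.orbit ↥(MulAction.stabilizer Co0 v ⊓
      MulAction.stabilizer Co0 w ⊓ MulAction.stabilizer Co0 x) (g⁻¹ • z)).ncard =
      {y | ∃ k : Co0, k • Spor.leechU = Spor.leechU ∧ k • Spor.leechU' = Spor.leechU' ∧
        k • (g • w) = g • w ∧ k • z = y}.ncard := by
    intro z
    refine ncard_smul_set g fun y => ?_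
    rw [MulAction.mem_orbit_iff, Set.mem_setOf_eq]
    constructor
    · rintro ⟨⟨k, hk⟩, rfl⟩
      obtain ⟨⟨k1, k2⟩, k3⟩ := hk
      refine ⟨g * k * g⁻¹, ?_, ?_, ?_, ?_⟩
      · rw [← g1, mul_smul, mul_smul, inv_smul_smul, MulAction.mem_stabilizer_iff.1 k1]
      · rw [← g2, mul_smul, mul_smul, inv_smul_smul, MulAction.mem_stabilizer_iff.1 k3]
      · rw [mul_smul, mul_smul, inv_smul_smul, MulAction.mem_stabilizer_iff.1 k2]
      · rw [mul_smul, mul_smul]; rfl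
    · rintro ⟨k, k1, k2, k3, k4⟩
      refine ⟨⟨g⁻¹ * k * g, ⟨?_, ?_⟩, ?_⟩, ?_⟩
      · show (g⁻¹ * k * g) • v = v
        rw [mul_smul, mul_smul, g1, k1, ← g1, inv_smul_smul]
      · show (g⁻¹ * k * g) • w = w
        rw [mul_smul, mul_smul, k3, inv_smul_smul]
      · show (g⁻¹ * k * g) • x = x
        rw [mul_smul, mul_smul, g2, k2, ← g2, inv_smul_smul]
      · show (g⁻¹ * k * g) • g⁻¹ • z = y
        rw [mul_smul, mul_smul, smul_inv_smul, k4, inv_smul_smul]
  refine ⟨g⁻¹ • a, (g4 _).2 (by rw [smul_inv_smul]; exact ha),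
    g⁻¹ • b, (g4 _).2 (by rw [smul_inv_smul]; exact hb),
    g⁻¹ • c, (g4 _).2 (by rw [smul_inv_smul]; exact hc), ?_, ?_, ?_⟩
  · rw [key, e1]
  · rw [key, e2]
  · rw [key, e3]

end CfsgLib.LeechTriples
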