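import Mathlib
import Cfsg.Agent.LeechTriples.Rank4

/-! The five kinds of vectors with product 16 with a vector of squared length 48, seen from one
with product 16. -/

set_option autoImplicit false

namespace CfsgLib.LeechTriples

open Cfsg CfsgLib.Leech
open scoped Pointwise symmDiff

/-- `3` at the marked point, `-1` on the rest of the octad. -/
def fF3 (e : (_ : Finset GolayPt) × GolayPt) (r : GolayPt) : ℤ :=
  if r = e.2 then 3 else if r ∈ e.1 then -1 else 1

/-- `-2` on the marked pair, `2` on the rest of the octad. -/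
def fF2 (e : (_ : Finset GolayPt) × Finset GolayPt) (r : GolayPt) : ℤ :=
  if r ∈ e.2 then -2 else if r ∈ e.1 then 2 else 0

/-- The five possible patterns. -/
inductive FiveForm (f : GolayPt → ℤ) : Prop
  | two (r : GolayPt) (hr : r ≠ none) (hn : f none = 4) (hv : f r = -4)
      (h0 : ∀ k, k ≠ none → k ≠ r → f k = 0) : FiveForm f
  | octIn (O : Finset GolayPt) (hO : O ∈ octads) (hnO : none ∈ O) (hn : f none = 2)
      (hv : ∀ i ∈ O, f i = 2 ∨ f i = -2) (h0 : ∀ i, i ∉ O → f i = 0)
      (hN : (negSet O f).card = 2) : FiveForm f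
  | octOut (O : Finset GolayPt) (hO : O ∈ octads) (hnO : none ∉ O)
      (hf : ∀ r, f r = hsF2 O r) : FiveForm f
  | three (hn : f none = 3) (hv : ∀ k, k ≠ none → f k = 1 ∨ f k = -1)
      (hN : (negSet (Finset.univ.erase none) f).card = 11) : FiveForm f
  | oct3 (O : Finset GolayPt) (i : GolayPt) (hO : O ∈ octads) (hnO : none ∉ O) (hi : i ∈ O)
      (hf : ∀ r, f r = fF3 ⟨O, i⟩ r) : FiveForm f

/-- The points with product 16. -/
def fivePts (v : leechLattice) : Set leechLattice := {y | nrm y = 32 ∧ ip v y = 16}

/-- A class of points. -/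
def fiveK (v : leechLattice) (k : ℤ) : Set leechLattice :=
  {y | y ∈ fivePts v ∧ ip Spor.leechU y = k}

section

variable {v : leechLattice} (hn : nrm v = 48) (hu : ip Spor.leechU v = 16)
  (hu' : ip Spor.leechU' v = 24)
include hn hu hu'

theorem five_form {y : leechLattice} (hy : y ∈ fivePts v) : FiveForm (rel v y) := by
  obtain ⟨hy32, hyv⟩ := hy
  obtain ⟨-, -, hodd, hm⟩ := hs_shape hn hu hu'
  obtain ⟨-, -, e3⟩ := hs_ip hn hu hu' y
  rw [e3] at hyv
  set f := rel v y with hf
  have hsh : IsTwo f ∨ IsOct f ∨ IsThree f := shape32 v y hy32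
  rcases hsh with ⟨i, j, hij, hi, hj, hk⟩ | ⟨O, hO, hOv, hO0⟩ | ⟨i, hi, hk⟩
  · have hs := sum_two hij hk
    have h0 : f none ≠ 0 := fun h => by omega
    have p : none = i ∨ none = j := by
      by_contra! hp; exact h0 (hk none hp.1 hp.2)
    rcases p with rfl | rfl
    · exact .two j hij.symm (by omega) (by omega) hk
    · exact .two i hij (by omega) (by omega) fun k a b => hk k b a
  · have hs := sum_oct hO hOv hO0
    by_cases hnO : none ∈ O
    · have h2 : f none = 2 ∧ (negSet O f).card = 2 := by
        rcases hOv none hnO with e | e <;> constructor <;> omega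
      exact .octIn O hO hnO h2.1 hOv hO0 h2.2
    · have hn0 := hO0 none hnO
      have hN : negSet O f = ∅ := Finset.card_eq_zero.1 (by omega)
      refine .octOut O hO hnO fun r => ?_
      rw [hsF2]
      split_ifs with h
      · rcases hOv r h with e | e
        · exact e
        · have : r ∈ negSet O f := Finset.mem_filter.2 ⟨h, by omega⟩
          simp [hN] at this
      · exact hO0 r h
  · have hs := sum_three hk
    set N := negSet (Finset.univ.erase i) f with hN
    rcases eq_or_ne i none with rfl | hin
    · have hNle : N.card ≤ 23 := le_trans (Finset.card_filter_le _ _)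
        (le_of_eq (by rw [Finset.card_erase_of_mem (Finset.mem_univ _)]; simp))
      exact .three (by omega) hk (by rw [← hN]; omega)
    have hn1 := hk none hin.symm
    have hoddy : IsOdd y := by
      rcases parity_all y with h | h
      · have := h i
        have e : rel v y i = 3 ∨ rel v y i = -3 := hi
        simp only [rel, sg] at e
        split_ifs at e <;> omega
      · exact h
    have hD := diffSet_mem_odd hodd hoddy
    have hmem : ∀ r, r ∈ diffSet (mag v) (rel v y) ↔
        (r = i ∧ f i = 3) ∨ r ∈ N := by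
      intro r
      simp only [diffSet, Finset.mem_filter, Finset.mem_univ, true_and, hm, mag5,
        show rel v y r = f r from rfl, hN, negSet, Finset.mem_erase]
      rcases eq_or_ne r i with rfl | hri
      · rw [if_neg hin]
        rcases hi with e | e <;> simp [e]
      rcases eq_or_ne r none with rfl | hr0
      · rw [if_pos rfl]
        rcases hk _ hri with e | e <;> simp [e, hri]
      · rw [if_neg hr0]
        rcases hk r hri with e | e <;> simp [e, hri]
    have hbig : ∀ r, r ∈ diffSet (mag v) (rel v y) → ∀ s : Finset GolayPt,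
        diffSet (mag v) (rel v y) ⊆ s → 8 ≤ s.card := fun r hr s hs =>
      le_trans (eight_le_code hD ⟨r, hr⟩) (Finset.card_le_card hs)
    rcases hn1 with hn1 | hn1
    · rcases hi with hfi | hfi
      · have hN7 : N.card = 7 := by omega
        have hiN : i ∉ N := fun h => (Finset.mem_erase.1 (Finset.mem_filter.1 h).1).1 rfl
        have hnN : none ∉ N := fun h => by have := (Finset.mem_filter.1 h).2; omega
        have hDeq : diffSet (mag v) (rel v y) = insert i N := by
          ext r
          rw [hmem, Finset.mem_insert]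
          constructor
          · rintro (⟨h, -⟩ | h) <;> simp [h]
          · rintro (h | h)
            · exact Or.inl ⟨h, hfi⟩
            · exact Or.inr h
        refine .oct3 (insert i N) i ⟨hDeq ▸ hD, by rw [Finset.card_insert_of_notMem hiN, hN7]⟩
          (by simp [hin.symm, hnN]) (by simp) fun r => ?_
        show f r = if r = i then 3 else if r ∈ insert i N then -1 else 1
        split_ifs with h1 h2
        · subst h1; exact hfi
        · have := (Finset.mem_filter.1 ((Finset.mem_insert.1 h2).resolve_left h1)).2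
          have := hk r h1
          omega
        · rcases hk r h1 with e | e
          · exact e
          · exact absurd (Finset.mem_insert.2 (Or.inr (Finset.mem_filter.2
              ⟨Finset.mem_erase.2 ⟨h1, Finset.mem_univ r⟩, by omega⟩))) h2
      · exfalso
        obtain ⟨r, hr⟩ := Finset.card_pos.1 (show 0 < N.card by omega)
        have := hbig r ((hmem r).2 (Or.inr hr)) N fun s hs =>
          ((hmem s).1 hs).resolve_left fun h => by omega
        omega
    · exfalso
      have hnN : none ∈ N :=
        Finset.mem_filter.2 ⟨Finset.mem_erase.2 ⟨hin.symm, Finset.mem_univ _⟩, by omega⟩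
      have h1 : 1 ≤ N.card := Finset.card_pos.2 ⟨_, hnN⟩
      have := hbig none ((hmem _).2 (Or.inr hnN)) (insert i N) fun s hs => by
        rcases (hmem s).1 hs with ⟨h, -⟩ | h <;> simp [h]
      have := Finset.card_insert_le i N
      omega

theorem five_ip {y : leechLattice} (hy : y ∈ fivePts v) :
    ip Spor.leechU y = 4 * (rel v y none - rel v y (some 0)) ∧
      ip Spor.leechU' y = 4 * (rel v y none + rel v y (some 0)) ∧
        ∑ r, rel v y r = 16 - 4 * rel v y none := by
  obtain ⟨e1, e2, e3⟩ := hs_ip hn hu hu' y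
  refine ⟨e1, e2, ?_⟩
  rw [hy.2] at e3
  omega

/-- A point of the first kind in every position. -/
theorem five_pt3 {y : leechLattice} (hy : y ∈ fivePts v) {i : GolayPt} (hi : i ∈ restPts) :
    ∃ x ∈ hsPts v, ip x y = 16 - 4 * rel v y none - 4 * rel v y i := by
  obtain ⟨x, hx⟩ : ∃ x : leechLattice, ∀ r, rel v x r = hsF3 i r := by
    obtain ⟨-, -, hodd, hm⟩ := hs_shape hn hu hu'
    obtain ⟨hin, hi0⟩ := mem_restPts.1 hi
    refine exists_odd hodd (by rw [hn]; norm_num) _ (fun r => ?_) ?_ ?_
    · simp only [hsF3]; split_ifs <;> norm_num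
    · have : diffSet (mag v) (hsF3 i) = ∅ := by
        ext r
        simp only [diffSet, Finset.mem_filter, Finset.mem_univ, true_and, Finset.notMem_empty,
          iff_false, not_not, hm, mag5, hsF3]
        split_ifs <;> simp_all
      rw [this]; exact Golay.empty_mem
    · simp only [hm, sum_mag5, sum_hsF3]
      simp [hsF3, hin.symm]
  refine ⟨x, (hs_pt3 hn hu hu' ⟨i, hi, hx⟩).1, ?_⟩
  rw [← (five_ip hn hu hu' hy).2.2, ip_rel_rel v, Finset.sum_congr rfl fun r _ => by rw [hx r],
    ← Finset.add_sum_erase _ _ (Finset.mem_univ i),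
    ← Finset.add_sum_erase _ (rel v y) (Finset.mem_univ i),
    Finset.sum_congr rfl fun r hr => show hsF3 i r * rel v y r = rel v y r by
      simp [hsF3, (Finset.mem_erase.1 hr).1],
    show hsF3 i i = -3 by simp [hsF3]]
  ring

theorem five_pick (y : leechLattice) {S : Finset GolayPt} (c : ℤ) (hS : 3 ≤ S.card)
    (h : ∀ r ∈ S, rel v y r = c) : ∃ i ∈ restPts, rel v y i = c := by
  obtain ⟨i, hi⟩ := Finset.card_pos.1 (show 0 < (S \ {none, some 0}).card by
    have := Finset.le_card_sdiff ({none, some 0} : Finset GolayPt) S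
    have := Finset.card_le_two (a := (none : GolayPt)) (b := some 0)
    omega)
  simp only [Finset.mem_sdiff, Finset.mem_insert, Finset.mem_singleton, not_or] at hi
  exact ⟨i, mem_restPts.2 hi.2, h i hi.1⟩

/-- Every point of a class has a neighbour in the configuration in good position. -/
theorem five_partner {y : leechLattice} {k : ℤ} (hy : y ∈ fiveK v k) (hk : k ≠ 32) :
    ∃ x ∈ hsPts v, ip x y = if k = -8 then 8 else 0 := by
  obtain ⟨hy, rfl⟩ := hy
  obtain ⟨e1, e2, e3⟩ := five_ip hn hu hu' hy
  have hb := hs_base_pt hn hu hu'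
  have key : (∃ i ∈ restPts, rel v y i = 4 - rel v y none) → ip Spor.leechU y ≠ -8 →
      ∃ x ∈ hsPts v, ip x y = if ip Spor.leechU y = -8 then 8 else 0 := by
    rintro ⟨i, hi, e⟩ hne
    obtain ⟨x, hx, hxy⟩ := five_pt3 hn hu hu' hy hi
    exact ⟨x, hx, by rw [hxy, if_neg hne, e]; ring⟩
  cases five_form hn hu hu' hy with
  | two r hr hn1 hv h0 =>
    have hr0 : r ≠ some 0 := fun e => hk (by rw [e1, hn1, ← e, hv]; norm_num)
    have h00 : rel v y (some 0) = 0 := h0 _ (by simp) hr0.symm
    refine key ?_ (by rw [e1, hn1, h00]; norm_num)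
    obtain ⟨i, hi⟩ := exists_other ({none, some 0, r} : Finset GolayPt) (by
      have := Finset.card_le_three (a := (none : GolayPt)) (b := some 0) (c := r); omega)
    simp only [Finset.mem_insert, Finset.mem_singleton, not_or] at hi
    exact ⟨i, mem_restPts.2 ⟨hi.1, hi.2.1⟩, by rw [h0 i hi.1 hi.2.2, hn1]; norm_num⟩
  | octIn O hO hnO hn1 hv h0 hN =>
    refine key ?_ ?_
    · refine five_pick hn hu hu' y (S := O \ negSet O (rel v y)) _ ?_ fun r hr => ?_
      · rw [Finset.card_sdiff_of_subset (show negSet O (rel v y) ⊆ O from Finset.filter_subset _ _),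
          hO.2, hN]
        norm_num
      · rw [Finset.mem_sdiff, negSet, Finset.mem_filter] at hr
        rcases hv r hr.1 with e | e
        · rw [e, hn1]; norm_num
        · exact absurd ⟨hr.1, by omega⟩ hr.2
    · by_cases h : some 0 ∈ O
      · rcases hv _ h with e | e <;> rw [e1, hn1, e] <;> norm_num
      · rw [e1, hn1, h0 _ h]; norm_num
  | octOut O hO hnO hf =>
    refine ⟨Spor.leechU', hb.1, ?_⟩
    rw [e1, e2, hf, hf]
    by_cases h : some 0 ∈ O <;> simp [hsF2, hnO, h]
  | three hn1 hv hN =>
    refine key ?_ ?_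
    · refine five_pick hn hu hu' y
        (S := Finset.univ.erase none \ negSet (Finset.univ.erase none) (rel v y)) _ ?_
        fun r hr => ?_
      · rw [Finset.card_sdiff_of_subset (show negSet (Finset.univ.erase none) (rel v y) ⊆ _ from
          Finset.filter_subset _ _), hN, Finset.card_erase_of_mem (Finset.mem_univ _)]
        simp
      · rw [Finset.mem_sdiff, negSet, Finset.mem_filter] at hr
        rcases hv r (Finset.mem_erase.1 hr.1).1 with e | e
        · rw [e, hn1]; norm_num
        · exact absurd ⟨hr.1, by omega⟩ hr.2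
    · rcases hv (some 0) (by simp) with e | e <;> rw [e1, hn1, e] <;> norm_num
  | oct3 O i hO hnO hi hf =>
    have hin : i ≠ none := fun e => hnO (e ▸ hi)
    have hn1 : rel v y none = 1 := by rw [hf, fF3]; simp [hnO, hin.symm]
    rcases eq_or_ne i (some 0) with rfl | hi0
    · obtain ⟨j, hj⟩ := exists_other (insert none O) (by
        have := Finset.card_insert_le none O; have := hO.2; omega)
      simp only [Finset.mem_insert, not_or] at hj
      have hj0 : j ≠ some 0 := fun e => hj.2 (e ▸ hi)
      obtain ⟨x, hx, hxy⟩ := five_pt3 hn hu hu' hy (mem_restPts.2 ⟨hj.1, hj0⟩)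
      refine ⟨x, hx, ?_⟩
      rw [hxy, e1, hn1, hf j, hf (some 0)]
      simp [fF3, hj.2, hj0]
    · refine key ⟨i, mem_restPts.2 ⟨hin, hi0⟩, by rw [hn1, hf, fF3]; simp⟩ ?_
      rw [e1, hn1, hf, fF3]
      simp only [if_neg hi0.symm]
      split_ifs <;> norm_num

theorem five_values {y : leechLattice} (hy : y ∈ fivePts v) :
    ip Spor.leechU y = 32 ∧ y = Spor.leechU ∨ ip Spor.leechU y = 16 ∨
      ip Spor.leechU y = 8 ∨ ip Spor.leechU y = 0 ∨ ip Spor.leechU y = -8 := by
  obtain ⟨a0, a1, -, -⟩ := hs_shape hn hu hu'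
  obtain ⟨e1, -, -⟩ := five_ip hn hu hu' hy
  cases five_form hn hu hu' hy with
  | two r hr hn1 hv h0 =>
    rcases eq_or_ne r (some 0) with rfl | hr0
    · refine Or.inl ⟨by rw [e1, hn1, hv]; norm_num, rel_inj (u := v) fun t => ?_⟩
      rw [(rel_hsU a0 a1 t).1]
      by_cases t0 : t = none
      · subst t0; rw [if_pos rfl]; exact hn1
      by_cases t1 : t = some 0
      · subst t1; rw [if_neg t0, if_pos rfl]; exact hv
      rw [if_neg t0, if_neg t1]; exact h0 t t0 t1
    · rw [e1, hn1, h0 _ (by simp) hr0.symm]; norm_num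
  | octIn O hO hnO hn1 hv h0 hN =>
    by_cases h : some 0 ∈ O
    · rcases hv _ h with e | e <;> rw [e1, hn1, e] <;> norm_num
    · rw [e1, hn1, h0 _ h]; norm_num
  | octOut O hO hnO hf =>
    rw [e1, hf, hf]
    by_cases h : some 0 ∈ O <;> simp [hsF2, hnO, h]
  | three hn1 hv hN =>
    rcases hv (some 0) (by simp) with e | e <;> rw [e1, hn1, e] <;> norm_num
  | oct3 O i hO hnO hi hf =>
    rw [e1, hf, hf, fF3, fF3]
    simp only [if_neg fun e : none = i => hnO (e ▸ hi), if_neg hnO]
    split_ifs <;> norm_num

end

end CfsgLib.LeechTriples
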