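import Mathlib
import Cfsg.Agent.LeechTriples.Rank5

/-! Transitivity on each class, and the class sizes 352 and 4125. -/

set_option autoImplicit false

namespace CfsgLib.LeechTriples

open Cfsg CfsgLib.Leech
open scoped Pointwise symmDiff

/-- Octads through `0` avoiding `∞`. -/
noncomputable def zeroOcts : Finset (Finset GolayPt) :=
  Golay.octadSets.filter fun O => (some 0 : GolayPt) ∈ O ∧ (none : GolayPt) ∉ O

theorem mem_zeroOcts {O : Finset GolayPt} :
    O ∈ zeroOcts ↔ O ∈ octads ∧ (some 0 : GolayPt) ∈ O ∧ (none : GolayPt) ∉ O := by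
  simp [zeroOcts, Golay.mem_octadSets]

/-- An octad avoiding `∞` and `0` with one of its points. -/
noncomputable def oIdx : Finset ((_ : Finset GolayPt) × GolayPt) := outOcts.sigma fun O => O

theorem card_oIdx : oIdx.card = 2640 := by
  rw [oIdx, Finset.card_sigma,
    Finset.sum_congr rfl fun O hO => (mem_outOcts.1 hO).1.2, Finset.sum_const, card_outOcts]
  rfl

/-- An octad through `∞` and `0` with two further points. -/
noncomputable def pIdx : Finset ((_ : Finset GolayPt) × Finset GolayPt) :=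
  hsOcts.sigma fun O => (O \ {none, some 0}).powersetCard 2

theorem mem_pIdx {e : (_ : Finset GolayPt) × Finset GolayPt} :
    e ∈ pIdx ↔ e.1 ∈ hsOcts ∧ e.2 ⊆ e.1 \ {none, some 0} ∧ e.2.card = 2 := by
  simp [pIdx, Finset.mem_powersetCard]

theorem card_pIdx : pIdx.card = 1155 := by
  rw [pIdx, Finset.card_sigma, Finset.sum_congr rfl fun O hO => show
    ((O \ {none, some 0}).powersetCard 2).card = 15 by
      obtain ⟨hO', a, b⟩ := mem_hsOcts.1 hO
      rw [Finset.card_powersetCard,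
        Finset.card_sdiff_of_subset (by simp [Finset.insert_subset_iff, a, b]), hO'.2]
      simp
      rfl,
    Finset.sum_const, card_hsOcts]
  rfl

theorem sum_fF3 {O : Finset GolayPt} {i : GolayPt} (hO : O ∈ octads) (hi : i ∈ O) :
    ∑ r, fF3 ⟨O, i⟩ r = 12 ∧ ∑ r, fF3 ⟨O, i⟩ r ^ 2 = 32 := by
  have hne : ∀ k, k ≠ i → fF3 ⟨O, i⟩ k = 1 ∨ fF3 ⟨O, i⟩ k = -1 := fun k hk => by
    simp only [fF3, if_neg hk]; split_ifs <;> simp
  have hN : negSet (Finset.univ.erase i) (fF3 ⟨O, i⟩) = O.erase i := by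
    ext r
    rw [negSet, Finset.mem_filter]
    simp only [Finset.mem_erase, Finset.mem_univ, and_true, fF3]
    rcases eq_or_ne r i with rfl | hr
    · simp
    · rw [if_neg hr]; split_ifs with q <;> simp [q, hr]
  constructor
  · rw [sum_three hne, hN, Finset.card_erase_of_mem hi, hO.2]
    simp [fF3]
  · rw [← Finset.add_sum_erase _ _ (Finset.mem_univ i),
      sum_sq_const fun k hk => hne k (Finset.mem_erase.1 hk).1,
      Finset.card_erase_of_mem (Finset.mem_univ i)]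
    simp [fF3]

theorem sum_fF2 {O P : Finset GolayPt} (hO : O ∈ octads) (hP : P ⊆ O) (hP2 : P.card = 2) :
    ∑ r, fF2 ⟨O, P⟩ r = 8 ∧ ∑ r, fF2 ⟨O, P⟩ r ^ 2 = 32 := by
  have hv : ∀ r ∈ O, fF2 ⟨O, P⟩ r = 2 ∨ fF2 ⟨O, P⟩ r = -2 := fun r hr => by
    simp only [fF2, if_pos hr]; split_ifs <;> simp
  have h0 : ∀ r, r ∉ O → fF2 ⟨O, P⟩ r = 0 := fun r hr => by
    simp only [fF2, if_neg hr, if_neg fun h => hr (hP h)]
  have hN : negSet O (fF2 ⟨O, P⟩) = P := by
    ext r
    rw [negSet, Finset.mem_filter]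
    simp only [fF2]
    constructor
    · rintro ⟨hr, h⟩
      by_contra hrP
      rw [if_neg hrP, if_pos hr] at h
      omega
    · intro hr; exact ⟨hP hr, by rw [if_pos hr]; norm_num⟩
  constructor
  · rw [sum_oct hO hv h0, hN, hP2]; norm_num
  · rw [← Finset.sum_subset (Finset.subset_univ O) fun k _ hk => by rw [h0 k hk]; norm_num,
      sum_sq_const hv, hO.2]
    norm_num

section

variable {v : leechLattice} (hn : nrm v = 48) (hu : ip Spor.leechU v = 16)
  (hu' : ip Spor.leechU' v = 24)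
include hn hu hu'

theorem five_of_hsF2 {O : Finset GolayPt} (hO : O ∈ octads) (hnO : none ∉ O) :
    (∃ y : leechLattice, ∀ r, rel v y r = hsF2 O r) ∧
      ∀ y : leechLattice, (∀ r, rel v y r = hsF2 O r) → y ∈ fivePts v := by
  obtain ⟨-, -, hodd, hm⟩ := hs_shape hn hu hu'
  refine ⟨exists_even hodd _ (fun r => ?_) ?_ ?_, fun y h => ⟨?_, ?_⟩⟩
  · simp only [hsF2]; split_ifs <;> norm_num
  · have : diffSet (fun _ => 0) (hsF2 O) = O := by
      ext r; rw [diffSet, Finset.mem_filter]; simp only [Finset.mem_univ, true_and, hsF2]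
      split_ifs with q <;> simp [q]
    rw [this]; exact hO.1
  · simp only [hm, sum_mag5, sum_hsF2 hO]
    simp [hsF2, hnO]
  · rw [nrm_rel v, Finset.sum_congr rfl fun r _ => by rw [h r]]
    simp only [hsF2, ite_pow, ne_eq, OfNat.ofNat_ne_zero, not_false_eq_true, zero_pow,
      Finset.sum_ite_mem, Finset.univ_inter, Finset.sum_const, hO.2]
    norm_num
  · rw [(hs_ip hn hu hu' y).2.2, Finset.sum_congr rfl fun r _ => h r, sum_hsF2 hO, h]
    simp [hsF2, hnO]

theorem five_of_fF3 {O : Finset GolayPt} {i : GolayPt} (hO : O ∈ octads) (hnO : none ∉ O)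
    (hi : i ∈ O) : (∃ y : leechLattice, ∀ r, rel v y r = fF3 ⟨O, i⟩ r) ∧
      ∀ y : leechLattice, (∀ r, rel v y r = fF3 ⟨O, i⟩ r) → y ∈ fivePts v := by
  obtain ⟨-, -, hodd, hm⟩ := hs_shape hn hu hu'
  have hin : i ≠ none := fun e => hnO (e ▸ hi)
  refine ⟨exists_odd hodd (by rw [hn]; norm_num) _ (fun r => ?_) ?_ ?_, fun y h => ⟨?_, ?_⟩⟩
  · simp only [fF3]; split_ifs <;> norm_num
  · have : diffSet (mag v) (fF3 ⟨O, i⟩) = O := by
      ext r; rw [diffSet, Finset.mem_filter]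
      simp only [Finset.mem_univ, true_and, hm, mag5, fF3]
      rcases eq_or_ne r i with rfl | hr
      · simp [hi, hin]
      rw [if_neg hr]
      rcases eq_or_ne r none with rfl | hr0
      · simp [hnO]
      · rw [if_neg hr0]; split_ifs with q <;> simp [q]
    rw [this]; exact hO.1
  · simp only [hm, sum_mag5, (sum_fF3 hO hi).1]
    simp [fF3, hin.symm, hnO]
  · rw [nrm_rel v, Finset.sum_congr rfl fun r _ => by rw [h r], (sum_fF3 hO hi).2]
  · rw [(hs_ip hn hu hu' y).2.2, Finset.sum_congr rfl fun r _ => h r, (sum_fF3 hO hi).1, h]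
    simp [fF3, hin.symm, hnO]

theorem five_of_fF2 {O P : Finset GolayPt} (hO : O ∈ octads) (hnO : none ∈ O) (hP : P ⊆ O)
    (hnP : none ∉ P) (hP2 : P.card = 2) :
    (∃ y : leechLattice, ∀ r, rel v y r = fF2 ⟨O, P⟩ r) ∧
      ∀ y : leechLattice, (∀ r, rel v y r = fF2 ⟨O, P⟩ r) → y ∈ fivePts v := by
  obtain ⟨-, -, hodd, hm⟩ := hs_shape hn hu hu'
  refine ⟨exists_even hodd _ (fun r => ?_) ?_ ?_, fun y h => ⟨?_, ?_⟩⟩
  · simp only [fF2]; split_ifs <;> norm_num
  · have : diffSet (fun _ => 0) (fF2 ⟨O, P⟩) = O := by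
      ext r; rw [diffSet, Finset.mem_filter]; simp only [Finset.mem_univ, true_and, fF2]
      by_cases q : r ∈ P
      · simp [q, hP q]
      · rw [if_neg q]; split_ifs with q' <;> simp [q']
    rw [this]; exact hO.1
  · simp only [hm, sum_mag5, (sum_fF2 hO hP hP2).1]
    simp [fF2, hnO, hnP]
  · rw [nrm_rel v, Finset.sum_congr rfl fun r _ => by rw [h r], (sum_fF2 hO hP hP2).2]
  · rw [(hs_ip hn hu hu' y).2.2, Finset.sum_congr rfl fun r _ => h r, (sum_fF2 hO hP hP2).1, h]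
    simp [fF2, hnO, hnP]

theorem fib16 {y : leechLattice} (hy : y ∈ fiveK v 16) (hj : ip Spor.leechU' y = 0) :
    ∃ O p, O ∈ hsOcts ∧ p ∈ O ∧ p ≠ none ∧ p ≠ some 0 ∧
      ∀ r, rel v y r = fF2 ⟨O, {some 0, p}⟩ r := by
  obtain ⟨hy, hk⟩ := hy
  obtain ⟨e1, e2, -⟩ := five_ip hn hu hu' hy
  rw [e1] at hk
  rw [e2] at hj
  have v1 : rel v y none = 2 ∧ rel v y (some 0) = -2 := by omega
  cases five_form hn hu hu' hy with
  | two r hr hn1 hv h0 => omega
  | octOut O hO hnO hf => rw [hf, hsF2, if_neg hnO] at v1; omega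
  | three hn1 hv hN => omega
  | oct3 O i hO hnO hi hf =>
    rw [hf, hf, fF3, fF3] at v1
    simp only [if_neg hnO, if_neg fun e : none = i => hnO (e ▸ hi)] at v1
    omega
  | octIn O hO hnO hn1 hv h0 hN =>
    have h0O : some 0 ∈ O := by
      by_contra h
      have := h0 _ h
      omega
    have h0N : some 0 ∈ negSet O (rel v y) := Finset.mem_filter.2 ⟨h0O, by omega⟩
    obtain ⟨p, hp⟩ := Finset.card_eq_one.1 (show ((negSet O (rel v y)).erase (some 0)).card = 1 by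
      rw [Finset.card_erase_of_mem h0N, hN])
    have hp' : p ≠ some 0 ∧ p ∈ negSet O (rel v y) :=
      Finset.mem_erase.1 (hp ▸ Finset.mem_singleton_self p)
    have hpN : ∀ r, r ∈ negSet O (rel v y) ↔ r = some 0 ∨ r = p := fun r => by
      rw [← Finset.insert_erase h0N, hp]; simp
    obtain ⟨hpO, hpneg⟩ := Finset.mem_filter.1 hp'.2
    refine ⟨O, p, mem_hsOcts.2 ⟨hO, hnO, h0O⟩, hpO, fun e => ?_, hp'.1, fun r => ?_⟩
    · subst e; omega
    show rel v y r = if r ∈ ({some 0, p} : Finset GolayPt) then -2 else if r ∈ O then 2 else 0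
    split_ifs with h1 h2
    · simp only [Finset.mem_insert, Finset.mem_singleton] at h1
      obtain ⟨a, b⟩ := Finset.mem_filter.1 ((hpN r).2 h1)
      have := hv r a
      omega
    · rcases hv r h2 with e | e
      · exact e
      · exact absurd ((hpN r).1 (Finset.mem_filter.2 ⟨h2, by omega⟩)) (by simpa using h1)
    · exact h0 r h2

theorem fib8 {y : leechLattice} (hy : y ∈ fiveK v 8) (hj : ip Spor.leechU' y = 0) :
    ∃ O i, O ∈ octads ∧ some 0 ∈ O ∧ none ∉ O ∧ i ∈ O ∧ i ≠ some 0 ∧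
      ∀ r, rel v y r = fF3 ⟨O, i⟩ r := by
  obtain ⟨hy, hk⟩ := hy
  obtain ⟨e1, e2, -⟩ := five_ip hn hu hu' hy
  rw [e1] at hk
  rw [e2] at hj
  have v1 : rel v y none = 1 ∧ rel v y (some 0) = -1 := by omega
  cases five_form hn hu hu' hy with
  | two r hr hn1 hv h0 => omega
  | octIn O hO hnO hn1 hv h0 hN => omega
  | octOut O hO hnO hf => rw [hf, hsF2, if_neg hnO] at v1; omega
  | three hn1 hv hN => omega
  | oct3 O i hO hnO hi hf =>
    have h := v1.2
    rw [hf, fF3] at h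
    refine ⟨O, i, hO, ?_, hnO, hi, ?_, hf⟩
    · split_ifs at h with a b <;> first | exact b | omega
    · rintro rfl
      simp at h

theorem fib0 {y : leechLattice} (hy : y ∈ fiveK v 0) (hj : ip Spor.leechU' y = 0) :
    ∃ O ∈ outOcts, ∀ r, rel v y r = hsF2 O r := by
  obtain ⟨hy, hk⟩ := hy
  obtain ⟨e1, e2, -⟩ := five_ip hn hu hu' hy
  rw [e1] at hk
  rw [e2] at hj
  have v1 : rel v y none = 0 ∧ rel v y (some 0) = 0 := by omega
  cases five_form hn hu hu' hy with
  | two r hr hn1 hv h0 => omega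
  | octIn O hO hnO hn1 hv h0 hN => omega
  | three hn1 hv hN => omega
  | oct3 O i hO hnO hi hf =>
    have h := v1.1
    rw [hf, fF3] at h
    simp only [if_neg hnO, if_neg fun e : none = i => hnO (e ▸ hi)] at h
    omega
  | octOut O hO hnO hf =>
    refine ⟨O, mem_outOcts.2 ⟨hO, hnO, fun h => ?_⟩, hf⟩
    have := v1.2
    rw [hf, hsF2, if_pos h] at this
    omega

theorem fibm8 {y : leechLattice} (hy : y ∈ fiveK v (-8)) :
    (ip Spor.leechU' y = 8 ∧ ∃ O ∈ zeroOcts, ∀ r, rel v y r = hsF2 O r) ∨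
    (ip Spor.leechU' y = 16 ∧ ∃ O ∈ zeroOcts, ∀ r, rel v y r = fF3 ⟨O, some 0⟩ r) := by
  obtain ⟨hy, hk⟩ := hy
  obtain ⟨e1, e2, -⟩ := five_ip hn hu hu' hy
  rw [e1] at hk
  have v1 : rel v y (some 0) = rel v y none + 2 := by omega
  rw [e2, v1]
  cases five_form hn hu hu' hy with
  | two r hr hn1 hv h0 =>
    exfalso
    rcases eq_or_ne r (some 0) with rfl | hr0
    · omega
    · have := h0 _ (by simp) hr0.symm; omega
  | octIn O hO hnO hn1 hv h0 hN =>
    exfalso
    by_cases h : some 0 ∈ O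
    · have := hv _ h; omega
    · have := h0 _ h; omega
  | three hn1 hv hN => exfalso; have := hv (some 0) (by simp); omega
  | octOut O hO hnO hf =>
    have hn0 : rel v y none = 0 := by rw [hf, hsF2, if_neg hnO]
    refine Or.inl ⟨by rw [hn0]; norm_num, O, mem_zeroOcts.2 ⟨hO, ?_, hnO⟩, hf⟩
    by_contra h
    rw [hn0, hf, hsF2, if_neg h] at v1
    omega
  | oct3 O i hO hnO hi hf =>
    have hn1 : rel v y none = 1 := by
      rw [hf, fF3]; simp [hnO, show none ≠ i from fun e => hnO (e ▸ hi)]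
    rw [hn1, hf, fF3] at v1
    have hi0 : i = some 0 := by
      by_contra h
      rw [if_neg (Ne.symm h)] at v1
      split_ifs at v1 <;> omega
    subst hi0
    exact Or.inr ⟨by rw [hn1]; norm_num, O, mem_zeroOcts.2 ⟨hO, hi, hnO⟩, hf⟩

theorem fib_trans {y y' : leechLattice} {k j : ℤ}
    (hkj : (k = 16 ∧ j = 0) ∨ (k = 8 ∧ j = 0) ∨ (k = 0 ∧ j = 0) ∨ (k = -8 ∧ j = 8))
    (hy : y ∈ fiveK v k) (hj : ip Spor.leechU' y = j) (hy' : y' ∈ fiveK v k)
    (hj' : ip Spor.leechU' y' = j) :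
    ∃ g : Co0, g • Spor.leechU = Spor.leechU ∧ g • v = v ∧ g • y = y' := by
  rcases hkj with ⟨rfl, rfl⟩ | ⟨rfl, rfl⟩ | ⟨rfl, rfl⟩ | ⟨rfl, rfl⟩
  · obtain ⟨O, p, hO, hp, pn, p0, hr⟩ := fib16 hn hu hu' hy hj
    obtain ⟨O', p', hO', hp', pn', p0', hr'⟩ := fib16 hn hu hu' hy' hj'
    obtain ⟨o1, o2, o3⟩ := mem_hsOcts.1 hO
    obtain ⟨p1, p2, p3⟩ := mem_hsOcts.1 hO'
    obtain ⟨σ, hσ, s0, s1, sp, sO⟩ := exists_perm_three_in (by simp) pn.symm p0.symm o1 o2 o3 hp
      (by simp) pn'.symm p0'.symm p1 p2 p3 hp'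
    obtain ⟨g, g1, -, g3, g4⟩ := hs_mono hσ s0 s1 hn hu hu' hn hu hu'
    refine ⟨g, g1, g3, rel_inj (u := v) fun r => ?_⟩
    obtain ⟨t, rfl⟩ := σ.surjective r
    rw [g4, hr, hr']
    have e1 : σ t = p' ↔ t = p := by conv_lhs => rw [← sp, σ.injective.eq_iff]
    have e3 : σ t = some 0 ↔ t = some 0 := by conv_lhs => rw [← s1, σ.injective.eq_iff]
    have e2 : σ t ∈ O' ↔ t ∈ O := by
      rw [← sO, ← Equiv.Perm.smul_def, Finset.smul_mem_smul_finset_iff]
    simp only [fF2, Finset.mem_insert, Finset.mem_singleton, e1, e2, e3]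
  · obtain ⟨O, i, o1, o2, o3, o4, o5, hr⟩ := fib8 hn hu hu' hy hj
    obtain ⟨O', i', p1, p2, p3, p4, p5, hr'⟩ := fib8 hn hu hu' hy' hj'
    obtain ⟨σ, hσ, s1, sp, s0, sO⟩ :=
      exists_perm_two_out (Ne.symm o5) o1 o2 o4 o3 (Ne.symm p5) p1 p2 p4 p3
    obtain ⟨g, g1, -, g3, g4⟩ := hs_mono hσ s0 s1 hn hu hu' hn hu hu'
    refine ⟨g, g1, g3, rel_inj (u := v) fun r => ?_⟩
    obtain ⟨t, rfl⟩ := σ.surjective r
    rw [g4, hr, hr']
    have e1 : σ t = i' ↔ t = i := by conv_lhs => rw [← sp, σ.injective.eq_iff]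
    have e2 : σ t ∈ O' ↔ t ∈ O := by
      rw [← sO, ← Equiv.Perm.smul_def, Finset.smul_mem_smul_finset_iff]
    simp only [fF3, e1, e2]
  · obtain ⟨O, hO, hr⟩ := fib0 hn hu hu' hy hj
    obtain ⟨O', hO', hr'⟩ := fib0 hn hu hu' hy' hj'
    obtain ⟨o1, o2, o3⟩ := mem_outOcts.1 hO
    obtain ⟨p1, p2, p3⟩ := mem_outOcts.1 hO'
    obtain ⟨σ, hσ, s0, s1, sO⟩ := exists_perm_out_two (by simp) o1 o2 o3 (by simp) p1 p2 p3
    obtain ⟨g, g1, -, g3, g4⟩ := hs_mono hσ s0 s1 hn hu hu' hn hu hu'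
    refine ⟨g, g1, g3, rel_inj (u := v) fun r => ?_⟩
    obtain ⟨t, rfl⟩ := σ.surjective r
    rw [g4, hr, hr']
    simp only [hsF2, ← sO, ← Equiv.Perm.smul_def, Finset.smul_mem_smul_finset_iff]
  · have get : ∀ y, y ∈ fiveK v (-8) → ip Spor.leechU' y = 8 →
        ∃ O ∈ zeroOcts, ∀ r, rel v y r = hsF2 O r := fun y h h' => by
      rcases fibm8 hn hu hu' h with ⟨-, e⟩ | ⟨e, -⟩
      · exact e
      · omega
    obtain ⟨O, hO, hr⟩ := get y hy hj
    obtain ⟨O', hO', hr'⟩ := get y' hy' hj'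
    obtain ⟨o1, o2, o3⟩ := mem_zeroOcts.1 hO
    obtain ⟨p1, p2, p3⟩ := mem_zeroOcts.1 hO'
    obtain ⟨q, hq, hq0⟩ := Finset.exists_mem_ne (by rw [o1.2]; norm_num) (some 0 : GolayPt)
    obtain ⟨q', hq', hq0'⟩ := Finset.exists_mem_ne (by rw [p1.2]; norm_num) (some 0 : GolayPt)
    obtain ⟨σ, hσ, s1, -, s0, sO⟩ :=
      exists_perm_two_out hq0.symm o1 o2 hq o3 hq0'.symm p1 p2 hq' p3
    obtain ⟨g, g1, -, g3, g4⟩ := hs_mono hσ s0 s1 hn hu hu' hn hu hu'
    refine ⟨g, g1, g3, rel_inj (u := v) fun r => ?_⟩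
    obtain ⟨t, rfl⟩ := σ.surjective r
    rw [g4, hr, hr']
    simp only [hsF2, ← sO, ← Equiv.Perm.smul_def, Finset.smul_mem_smul_finset_iff]

/-- The stabiliser is transitive on each class. -/
theorem five_trans {y y' : leechLattice} {k : ℤ}
    (hk : k = 16 ∨ k = 8 ∨ k = 0 ∨ k = -8) (hy : y ∈ fiveK v k) (hy' : y' ∈ fiveK v k) :
    ∃ g : Co0, g • Spor.leechU = Spor.leechU ∧ g • v = v ∧ g • y = y' := by
  have move : ∀ y, y ∈ fiveK v k → ∃ g : Co0, g • Spor.leechU = Spor.leechU ∧ g • v = v ∧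
      g • y ∈ fiveK v k ∧ ip Spor.leechU' (g • y) = if k = -8 then 8 else 0 := by
    intro y hy
    obtain ⟨x, ⟨x1, x2, x3⟩, hxy⟩ := five_partner hn hu hu' hy (by omega)
    obtain ⟨g, g1, g2, g3⟩ := exists_hsTriple Spor.leechU x v Spor.leechU Spor.leechU' v
      nrm_leechU x1 hn x2 hu (by rw [ip_comm]; exact x3) nrm_leechU nrm_leechU' hn
      ip_leechU_leechU' hu hu'
    obtain ⟨⟨a, b⟩, c⟩ := hy
    exact ⟨g, g1, g3, ⟨⟨by rw [nrm_smul, a], by rw [← g3, ip_smul, b]⟩,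
      by rw [← g1, ip_smul, c]⟩, by rw [← g2, ip_smul, hxy]⟩
  obtain ⟨g, g1, g2, g3, g4⟩ := move y hy
  obtain ⟨h, h1, h2, h3, h4⟩ := move y' hy'
  obtain ⟨f, f1, f2, f3⟩ := fib_trans hn hu hu' (k := k) (j := if k = -8 then 8 else 0)
    (by rcases hk with rfl | rfl | rfl | rfl <;> simp) g3 g4 h3 h4
  exact ⟨h⁻¹ * f * g, by rw [mul_smul, mul_smul, g1, f1, inv_smul_eq_iff, h1],
    by rw [mul_smul, mul_smul, g2, f2, inv_smul_eq_iff, h2],
    by rw [mul_smul, mul_smul, f3, inv_smul_smul]⟩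

theorem ncard_fiveKm8 : (fiveK v (-8)).ncard = 352 := by
  have hz : zeroOcts.card = 176 := card_zeroOcts
  have hA : {y : leechLattice | ∃ O ∈ zeroOcts, ∀ r, rel v y r = hsF2 O r}.ncard = 176 := by
    refine (ncard_param v zeroOcts hsF2 ?_ fun O hO => ?_).trans hz
    · intro A _ B _ h
      ext r
      have := congrFun h r
      simp only [hsF2] at this
      split_ifs at this with h1 h2 <;> simp_all
    · exact (five_of_hsF2 hn hu hu' (mem_zeroOcts.1 hO).1 (mem_zeroOcts.1 hO).2.2).1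
  have hB : {y : leechLattice |
      ∃ O ∈ zeroOcts, ∀ r, rel v y r = fF3 ⟨O, some 0⟩ r}.ncard = 176 := by
    refine (ncard_param v zeroOcts (fun O r => fF3 ⟨O, some 0⟩ r) ?_ fun O hO => ?_).trans hz
    · intro A hA B hB h
      ext r
      have := congrFun h r
      simp only [fF3] at this
      rcases eq_or_ne r (some 0) with rfl | hr
      · exact iff_of_true (mem_zeroOcts.1 hA).2.1 (mem_zeroOcts.1 hB).2.1
      · rw [if_neg hr, if_neg hr] at this
        split_ifs at this with h1 h2 <;> simp_all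
    · obtain ⟨o1, o2, o3⟩ := mem_zeroOcts.1 hO
      exact (five_of_fF3 hn hu hu' o1 o3 o2).1
  rw [show fiveK v (-8) = {y : leechLattice | ∃ O ∈ zeroOcts, ∀ r, rel v y r = hsF2 O r} ∪
      {y : leechLattice | ∃ O ∈ zeroOcts, ∀ r, rel v y r = fF3 ⟨O, some 0⟩ r} from ?_,
    Set.ncard_union_eq ?_ (Set.finite_of_ncard_ne_zero (by omega))
      (Set.finite_of_ncard_ne_zero (by omega)), hA, hB]
  · refine Set.disjoint_left.2 ?_
    rintro y ⟨O, hO, h⟩ ⟨O', hO', h'⟩
    have a := h none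
    rw [h' none] at a
    simp [fF3, hsF2, (mem_zeroOcts.1 hO).2.2, (mem_zeroOcts.1 hO').2.2] at a
  · ext y
    constructor
    · intro hy
      rcases fibm8 hn hu hu' hy with ⟨-, h⟩ | ⟨-, h⟩
      · exact Or.inl h
      · exact Or.inr h
    · rintro (⟨O, hO, h⟩ | ⟨O, hO, h⟩) <;> obtain ⟨o1, o2, o3⟩ := mem_zeroOcts.1 hO
      · refine ⟨(five_of_hsF2 hn hu hu' o1 o3).2 y h, ?_⟩
        rw [(hs_ip hn hu hu' y).1, h, h]
        simp [hsF2, o2, o3]
      · refine ⟨(five_of_fF3 hn hu hu' o1 o3 o2).2 y h, ?_⟩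
        rw [(hs_ip hn hu hu' y).1, h, h]
        simp [fF3, o3]

theorem ncard_fiveK0 : (fiveK v 0).ncard = 4125 := by
  have hA : {y : leechLattice | ∃ O ∈ outOcts, ∀ r, rel v y r = hsF2 O r}.ncard = 330 := by
    refine (ncard_param v outOcts hsF2 ?_ fun O hO => ?_).trans card_outOcts
    · intro A _ B _ h
      ext r
      have := congrFun h r
      simp only [hsF2] at this
      split_ifs at this with h1 h2 <;> simp_all
    · exact (five_of_hsF2 hn hu hu' (mem_outOcts.1 hO).1 (mem_outOcts.1 hO).2.1).1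
  have hP : ∀ e ∈ pIdx, e.1 ∈ octads ∧ none ∈ e.1 ∧ some 0 ∈ e.1 ∧ e.2 ⊆ e.1 ∧ none ∉ e.2 ∧
      some 0 ∉ e.2 ∧ e.2.card = 2 := by
    intro e he
    obtain ⟨h1, h2, h3⟩ := mem_pIdx.1 he
    obtain ⟨a, b, c⟩ := mem_hsOcts.1 h1
    exact ⟨a, b, c, h2.trans Finset.sdiff_subset,
      fun h => by simpa using h2 h, fun h => by simpa using h2 h, h3⟩
  have hB : {y : leechLattice | ∃ e ∈ pIdx, ∀ r, rel v y r = fF2 e r}.ncard = 1155 := by
    refine (ncard_param v pIdx fF2 ?_ fun e he => ?_).trans card_pIdx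
    · rintro ⟨O, P⟩ ha ⟨O', P'⟩ hb h
      have hPP : ∀ r, r ∈ P ↔ r ∈ P' := fun r => by
        have := congrFun h r
        simp only [fF2] at this
        split_ifs at this <;> simp_all
      have hOO : ∀ r, r ∈ O ↔ r ∈ O' := fun r => by
        have := congrFun h r
        simp only [fF2] at this
        by_cases q : r ∈ P
        · exact iff_of_true ((hP _ ha).2.2.2.1 q) ((hP _ hb).2.2.2.1 ((hPP r).1 q))
        · rw [if_neg q, if_neg fun q' => q ((hPP r).2 q')] at this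
          split_ifs at this <;> simp_all
      obtain rfl : O = O' := Finset.ext hOO
      obtain rfl : P = P' := Finset.ext hPP
      rfl
    · obtain ⟨O, P⟩ := e
      obtain ⟨a, b, -, d, d', -, d2⟩ := hP _ he
      exact (five_of_fF2 hn hu hu' a b d d' d2).1
  have hC : {y : leechLattice | ∃ e ∈ oIdx, ∀ r, rel v y r = fF3 e r}.ncard = 2640 := by
    refine (ncard_param v oIdx fF3 ?_ fun e he => ?_).trans card_oIdx
    · rintro ⟨O, p⟩ ha ⟨O', p'⟩ hb h
      obtain ⟨-, hp⟩ := Finset.mem_sigma.1 ha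
      obtain ⟨-, hp'⟩ := Finset.mem_sigma.1 hb
      have hpp : p = p' := by
        by_contra hne
        have := congrFun h p
        simp only [fF3, if_true, if_neg hne] at this
        split_ifs at this <;> omega
      subst hpp
      have : O = O' := by
        ext r
        have := congrFun h r
        simp only [fF3] at this
        rcases eq_or_ne r p with rfl | hr
        · exact iff_of_true hp hp'
        · rw [if_neg hr, if_neg hr] at this
          split_ifs at this with h1 h2 <;> simp_all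
      subst this; rfl
    · obtain ⟨O, p⟩ := e
      obtain ⟨hO, hp⟩ := Finset.mem_sigma.1 he
      exact (five_of_fF3 hn hu hu' (mem_outOcts.1 hO).1 (mem_outOcts.1 hO).2.1 hp).1
  have heq : fiveK v 0 = {y : leechLattice | ∃ O ∈ outOcts, ∀ r, rel v y r = hsF2 O r} ∪
      ({y : leechLattice | ∃ e ∈ pIdx, ∀ r, rel v y r = fF2 e r} ∪
        {y : leechLattice | ∃ e ∈ oIdx, ∀ r, rel v y r = fF3 e r}) := by
    ext y
    constructor
    · rintro ⟨hy, hk⟩
      obtain ⟨e1, -, -⟩ := five_ip hn hu hu' hy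
      rw [e1] at hk
      have v1 : rel v y (some 0) = rel v y none := by omega
      cases five_form hn hu hu' hy with
      | two r hr hn1 hv h0 =>
        exfalso
        rcases eq_or_ne r (some 0) with rfl | hr0
        · omega
        · have := h0 _ (by simp) hr0.symm; omega
      | three hn1 hv hN => exfalso; have := hv (some 0) (by simp); omega
      | octOut O hO hnO hf =>
        refine Or.inl ⟨O, mem_outOcts.2 ⟨hO, hnO, fun h => ?_⟩, hf⟩
        rw [hf, hf, hsF2, hsF2, if_pos h, if_neg hnO] at v1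
        omega
      | octIn O hO hnO hn1 hv h0 hN =>
        have h0O : some 0 ∈ O := by
          by_contra h
          have := h0 _ h
          omega
        refine Or.inr (Or.inl ⟨⟨O, negSet O (rel v y)⟩,
          mem_pIdx.2 ⟨mem_hsOcts.2 ⟨hO, hnO, h0O⟩, fun r hr => ?_, hN⟩, fun r => ?_⟩)
        · obtain ⟨a, b⟩ := Finset.mem_filter.1 hr
          simp only [Finset.mem_sdiff, Finset.mem_insert, Finset.mem_singleton]
          refine ⟨a, ?_⟩
          rintro (rfl | rfl) <;> omega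
        show rel v y r = if r ∈ negSet O (rel v y) then -2 else if r ∈ O then 2 else 0
        split_ifs with h1 h2
        · obtain ⟨a, b⟩ := Finset.mem_filter.1 h1
          have := hv r a
          omega
        · rcases hv r h2 with e | e
          · exact e
          · exact absurd (Finset.mem_filter.2 ⟨h2, by omega⟩) h1
        · exact h0 r h2
      | oct3 O i hO hnO hi hf =>
        refine Or.inr (Or.inr ⟨⟨O, i⟩, Finset.mem_sigma.2
          ⟨mem_outOcts.2 ⟨hO, hnO, fun h => ?_⟩, hi⟩, hf⟩)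
        rw [hf, hf, fF3, fF3] at v1
        simp only [if_neg hnO, if_neg fun e : none = i => hnO (e ▸ hi), if_pos h] at v1
        split_ifs at v1 <;> omega
    · rintro (⟨O, hO, h⟩ | ⟨⟨O, P⟩, he, h⟩ | ⟨⟨O, p⟩, he, h⟩)
      · obtain ⟨o1, o2, o3⟩ := mem_outOcts.1 hO
        refine ⟨(five_of_hsF2 hn hu hu' o1 o2).2 y h, ?_⟩
        rw [(hs_ip hn hu hu' y).1, h, h]
        simp [hsF2, o2, o3]
      · obtain ⟨a, b, c, d, d', d0, d2⟩ := hP _ he
        refine ⟨(five_of_fF2 hn hu hu' a b d d' d2).2 y h, ?_⟩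
        rw [(hs_ip hn hu hu' y).1, h, h]
        simp [fF2, b, c, d', d0]
      · obtain ⟨hO, hp⟩ := Finset.mem_sigma.1 he
        obtain ⟨o1, o2, o3⟩ := mem_outOcts.1 hO
        refine ⟨(five_of_fF3 hn hu hu' o1 o2 hp).2 y h, ?_⟩
        rw [(hs_ip hn hu hu' y).1, h, h]
        have q1 : none ≠ p := fun e => o2 (e ▸ hp)
        have q2 : some 0 ≠ p := fun e => o3 (e ▸ hp)
        simp [fF3, o2, o3, q1, q2]
  have fA : {y : leechLattice | ∃ O ∈ outOcts, ∀ r, rel v y r = hsF2 O r}.Finite :=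
    Set.finite_of_ncard_ne_zero (by omega)
  have fB : {y : leechLattice | ∃ e ∈ pIdx, ∀ r, rel v y r = fF2 e r}.Finite :=
    Set.finite_of_ncard_ne_zero (by omega)
  have fC : {y : leechLattice | ∃ e ∈ oIdx, ∀ r, rel v y r = fF3 e r}.Finite :=
    Set.finite_of_ncard_ne_zero (by omega)
  rw [heq, Set.ncard_union_eq ?_ fA (fB.union fC), Set.ncard_union_eq ?_ fB fC, hA, hB, hC]
  · refine Set.disjoint_left.2 ?_
    rintro y ⟨⟨O, P⟩, he, h⟩ ⟨⟨O', p⟩, he', h'⟩
    have a := h none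
    rw [h' none] at a
    obtain ⟨hO', hp'⟩ := Finset.mem_sigma.1 he'
    obtain ⟨-, o2, -⟩ := mem_outOcts.1 hO'
    have q : none ≠ p := fun e => o2 (e ▸ hp')
    obtain ⟨-, b, -, -, d', -, -⟩ := hP _ he
    simp [fF3, fF2, o2, q, b, d'] at a
  · refine Set.disjoint_left.2 ?_
    rintro y ⟨O, hO, h⟩ h'
    have a := h none
    rw [hsF2, if_neg (mem_outOcts.1 hO).2.1] at a
    rcases h' with ⟨⟨O', P⟩, he, h'⟩ | ⟨⟨O', p⟩, he, h'⟩ <;> rw [h' none] at a
    · obtain ⟨-, b, -, -, d', -, -⟩ := hP _ he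
      simp [fF2, b, d'] at a
    · obtain ⟨hO', hp'⟩ := Finset.mem_sigma.1 he
      obtain ⟨-, o2, -⟩ := mem_outOcts.1 hO'
      have q : none ≠ p := fun e => o2 (e ▸ hp')
      simp [fF3, o2, q] at a

end

end CfsgLib.LeechTriples
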