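import Mathlib
import Cfsg.Agent.LeechTriples.Rank5Orbits
import Cfsg.Agent.LeechTriples.HSTransfer

/-! The class sizes 1100 and 5600 and the orbits for a general pair. -/

set_option autoImplicit false

namespace CfsgLib.LeechTriples

open Cfsg CfsgLib.Leech
open scoped Pointwise symmDiff

/-- `4` at `∞` and `-4` at the marked point. -/
def fT (r t : GolayPt) : ℤ := if t = none then 4 else if t = r then -4 else 0

section

variable {v : leechLattice} (hn : nrm v = 48) (hu : ip Spor.leechU v = 16)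
  (hu' : ip Spor.leechU' v = 24)
include hn hu hu'

theorem ncard_fib16 : {y ∈ fiveK v 16 | ip Spor.leechU' y = 16}.ncard = 22 := by
  obtain ⟨-, -, hodd, hm⟩ := hs_shape hn hu hu'
  have hsum : ∀ r ∈ restPts, ∑ t, fT r t = 0 ∧ ∑ t, fT r t ^ 2 = 32 := fun r hr => by
    obtain ⟨rn, -⟩ := mem_restPts.1 hr
    constructor <;> rw [sum_two rn.symm fun k a b => by simp [fT, a, b]] <;> simp [fT, rn]
  rw [show {y ∈ fiveK v 16 | ip Spor.leechU' y = 16} =
    {y : leechLattice | ∃ r ∈ restPts, ∀ t, rel v y t = fT r t} from ?_]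
  · refine (ncard_param v restPts fT ?_ fun r hr => ?_).trans card_restPts
    · intro a ha b _ h
      by_contra hne
      have := congrFun h a
      simp [fT, (mem_restPts.1 ha).1, hne] at this
    · refine exists_even hodd _ (fun t => ?_) ?_ ?_
      · simp only [fT]; split_ifs <;> norm_num
      · have : diffSet (fun _ => 0) (fT r) = ∅ := by
          ext t
          rw [diffSet, Finset.mem_filter]
          simp only [Finset.mem_univ, true_and, Finset.notMem_empty, iff_false, not_not, fT]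
          split_ifs <;> norm_num
        rw [this]; exact Golay.empty_mem
      · simp only [hm, sum_mag5, (hsum r hr).1]
        simp [fT]
  · ext y
    constructor
    · rintro ⟨⟨hy, hk⟩, hj⟩
      obtain ⟨e1, e2, -⟩ := five_ip hn hu hu' hy
      rw [e1] at hk
      rw [e2] at hj
      have v1 : rel v y none = 4 ∧ rel v y (some 0) = 0 := by omega
      cases five_form hn hu hu' hy with
      | octIn O hO hnO hn1 hv h0 hN => omega
      | octOut O hO hnO hf => rw [hf, hsF2, if_neg hnO] at v1; omega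
      | three hn1 hv hN => omega
      | oct3 O i hO hnO hi hf =>
        have h := v1.1
        rw [hf, fF3] at h
        simp only [if_neg hnO, if_neg fun e : none = i => hnO (e ▸ hi)] at h
        omega
      | two r hr hn1 hv h0 =>
        refine ⟨r, mem_restPts.2 ⟨hr, fun e => by subst e; omega⟩, fun t => ?_⟩
        rw [fT]
        split_ifs with a b
        · subst a; exact hn1
        · subst b; exact hv
        · exact h0 t a b
    · rintro ⟨r, hr, h⟩
      obtain ⟨rn, r0⟩ := mem_restPts.1 hr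
      obtain ⟨e1, e2, e3⟩ := hs_ip hn hu hu' y
      refine ⟨⟨⟨?_, ?_⟩, ?_⟩, ?_⟩
      · rw [nrm_rel v, Finset.sum_congr rfl fun t _ => by rw [h t], (hsum r hr).2]
      · rw [e3, Finset.sum_congr rfl fun t _ => h t, (hsum r hr).1, h]; simp [fT]
      · rw [e1, h, h]; simp [fT, r0.symm]
      · rw [e2, h, h]; simp [fT, r0.symm]

theorem exists_rowTwo : ∃ y ∈ fiveK v 16, {x ∈ hsPts v | ip x y = 16}.ncard = 2 := by
  obtain ⟨y, hy, hyj⟩ := Set.nonempty_of_ncard_ne_zero
    (s := {y ∈ fiveK v 16 | ip Spor.leechU' y = 16}) (by rw [ncard_fib16 hn hu hu']; norm_num)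
  obtain ⟨e1, e2, -⟩ := five_ip hn hu hu' hy.1
  have v1 : rel v y none = 4 ∧ rel v y (some 0) = 0 := by
    have a := hy.2; rw [e1] at a
    rw [e2] at hyj
    omega
  cases five_form hn hu hu' hy.1 with
  | octIn O hO hnO hn1 hv h0 hN => omega
  | octOut O hO hnO hf => rw [hf, hsF2, if_neg hnO] at v1; omega
  | three hn1 hv hN => omega
  | oct3 O i hO hnO hi hf =>
    have h := v1.1
    rw [hf, fF3] at h
    simp only [if_neg hnO, if_neg fun e : none = i => hnO (e ▸ hi)] at h
    omega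
  | two r hr hn1 hv h0 =>
    have hr0 : r ≠ some 0 := fun e => by subst e; omega
    have hsum : ∀ g : GolayPt → ℤ, ∑ t, g t * rel v y t = 4 * g none - 4 * g r := fun g => by
      rw [sum_two hr.symm fun k a b => by rw [h0 k a b]; norm_num, hn1, hv]; ring
    have hb := hs_base_pt hn hu hu'
    have hex : ∀ i ∈ restPts, ∃ z : leechLattice, ∀ t, rel v z t = hsF3 i t := fun i hi => by
      obtain ⟨-, -, hodd, hm⟩ := hs_shape hn hu hu'
      obtain ⟨hin, -⟩ := mem_restPts.1 hi
      refine exists_odd hodd (by rw [hn]; norm_num) _ (fun t => ?_) ?_ ?_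
      · simp only [hsF3]; split_ifs <;> norm_num
      · have : diffSet (mag v) (hsF3 i) = ∅ := by
          ext t
          simp only [diffSet, Finset.mem_filter, Finset.mem_univ, true_and, Finset.notMem_empty,
            iff_false, not_not, hm, mag5, hsF3]
          split_ifs <;> simp_all
        rw [this]; exact Golay.empty_mem
      · simp only [hm, sum_mag5, sum_hsF3]
        simp [hsF3, hin.symm]
    have hrr : r ∈ restPts := mem_restPts.2 ⟨hr, hr0⟩
    obtain ⟨z, hz⟩ := hex r hrr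
    have hz3 : z ∈ hsPts3 v := ⟨r, hrr, hz⟩
    have hzU : Spor.leechU' ≠ z := fun e => by
      have := (hs_pt3 hn hu hu' hz3).2
      rw [← e, hb.2] at this; norm_num at this
    refine ⟨y, hy, ?_⟩
    rw [← Set.ncard_pair hzU]
    congr 1
    ext x
    simp only [Set.mem_setOf_eq, Set.mem_insert_iff, Set.mem_singleton_iff]
    constructor
    · rintro ⟨hx, h16⟩
      rcases hs_class hn hu hu' hx with h | ⟨i, hi, h⟩ | ⟨O, hO, h⟩
      · exact Or.inl h
      · right
        rw [ip_rel_rel v, Finset.sum_congr rfl fun t _ => by rw [h t], hsum] at h16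
        have hir : r = i := by
          by_contra e
          simp [hsF3, (mem_restPts.1 hi).1.symm, e] at h16
        subst hir
        exact rel_inj fun t => (h t).trans (hz t).symm
      · exfalso
        rw [ip_rel_rel v, Finset.sum_congr rfl fun t _ => by rw [h t], hsum, hsF2,
          hsF2, if_pos (mem_hsOcts.1 hO).2.1] at h16
        split_ifs at h16 <;> omega
    · rintro (rfl | rfl)
      · exact ⟨hb.1, hyj⟩
      · refine ⟨(hs_pt3 hn hu hu' hz3).1, ?_⟩
        rw [ip_rel_rel v, Finset.sum_congr rfl fun t _ => by rw [hz t], hsum]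
        simp [hsF3, hr.symm]

theorem fiveK_finite (k : ℤ) : (fiveK v k).Finite := by
  refine (nbrs v 16).finite_toSet.subset fun y hy => ?_
  exact mem_nbrs.2 hy.1

theorem hsPts_finite : (hsPts v).Finite :=
  Set.finite_of_ncard_ne_zero (by rw [ncard_hsPts hn hu hu']; norm_num)

theorem ncard_fiveK16 : (fiveK v 16).ncard = 1100 := by
  classical
  set H := (hsPts_finite hn hu hu').toFinset with hH
  set K := (fiveK_finite hn hu hu' 16).toFinset with hK
  have col : ∀ x ∈ H, (K.bipartiteAbove (fun x y => ip x y = 16) x).card = 22 := by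
    intro x hx
    obtain ⟨x1, x2, x3⟩ := (Set.Finite.mem_toFinset _).1 hx
    obtain ⟨g, g1, g2, g3⟩ := exists_hsTriple Spor.leechU x v Spor.leechU Spor.leechU' v
      nrm_leechU x1 hn x2 hu (by rw [ip_comm]; exact x3) nrm_leechU nrm_leechU' hn
      ip_leechU_leechU' hu hu'
    rw [← ncard_fib16 hn hu hu', ← Set.ncard_coe_finset]
    refine ncard_smul_set g fun y => ?_
    simp only [Finset.coe_bipartiteAbove, hK, Set.Finite.mem_toFinset, Set.mem_setOf_eq, fiveK,
      fivePts]
    rw [nrm_smul]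
    conv_rhs => rw [← g2, ip_smul, ← g1, ip_smul, ← g3, ip_smul]
  obtain ⟨y₀, hy₀, h2⟩ := exists_rowTwo hn hu hu'
  have row : ∀ y ∈ K, (H.bipartiteBelow (fun x y => ip x y = 16) y).card = 2 := by
    intro y hy
    obtain ⟨g, g1, g2, g3⟩ := five_trans hn hu hu' (k := 16) (Or.inl rfl)
      ((Set.Finite.mem_toFinset _).1 hy) hy₀
    rw [← h2, ← Set.ncard_coe_finset]
    refine ncard_smul_set g fun x => ?_
    simp only [Finset.coe_bipartiteBelow, hH, Set.Finite.mem_toFinset, Set.mem_setOf_eq, hsPts]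
    rw [nrm_smul, ← g3, ip_smul]
    conv_rhs => rw [← g1, ip_smul, ← g2, ip_smul]
  have := Finset.card_mul_eq_card_mul _ col row
  rw [hH, hK, ← Set.ncard_eq_toFinset_card _ (hsPts_finite hn hu hu'),
    ← Set.ncard_eq_toFinset_card _ (fiveK_finite hn hu hu' 16), ncard_hsPts hn hu hu'] at this
  omega

theorem five_cover : fivePts v = {Spor.leechU} ∪ fiveK v 16 ∪ fiveK v 8 ∪ fiveK v 0 ∪
    fiveK v (-8) := by
  ext y
  simp only [Set.mem_union, Set.mem_singleton_iff]
  constructor
  · intro hy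
    rcases five_values hn hu hu' hy with ⟨-, h⟩ | h | h | h | h
    · simp [h]
    all_goals simp [fiveK, hy, h]
  · rintro ((((rfl | h) | h) | h) | h)
    · exact ⟨nrm_leechU, by rw [ip_comm, hu]⟩
    all_goals exact h.1

theorem ncard_fiveK8 : (fiveK v 8).ncard = 5600 := by
  have htot : (fivePts v).ncard = 11178 := by
    rw [← card_nbrs48 hn, ← Set.ncard_coe_finset]
    congr 1
    ext y
    simp [fivePts, mem_nbrs]
  have hd : ∀ k l : ℤ, k ≠ l → ∀ y, y ∈ fiveK v k → y ∉ fiveK v l := fun k l h y hy hy' =>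
    h (hy.2.symm.trans hy'.2)
  have hU : ∀ k : ℤ, k ≠ 32 → Spor.leechU ∉ fiveK v k := fun k h h' =>
    h (by rw [← h'.2, ip_self, nrm_leechU])
  have fin := fiveK_finite hn hu hu'
  rw [five_cover hn hu hu',
    Set.ncard_union_eq (Set.disjoint_left.2 ?_) ((((Set.finite_singleton _).union (fin 16)).union
      (fin 8)).union (fin 0)) (fin (-8)),
    Set.ncard_union_eq (Set.disjoint_left.2 ?_) (((Set.finite_singleton _).union (fin 16)).union
      (fin 8)) (fin 0),
    Set.ncard_union_eq (Set.disjoint_left.2 ?_) ((Set.finite_singleton _).union (fin 16)) (fin 8),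
    Set.ncard_union_eq (Set.disjoint_left.2 ?_) (Set.finite_singleton _) (fin 16),
    Set.ncard_singleton, ncard_fiveK16 hn hu hu', ncard_fiveK0 hn hu hu',
    ncard_fiveKm8 hn hu hu'] at htot
  · omega
  · rintro y rfl; exact hU 16 (by norm_num)
  · rintro y (rfl | h)
    · exact hU 8 (by norm_num)
    · exact hd 16 8 (by norm_num) y h
  · rintro y ((rfl | h) | h)
    · exact hU 0 (by norm_num)
    · exact hd 16 0 (by norm_num) y h
    · exact hd 8 0 (by norm_num) y h
  · rintro y (((rfl | h) | h) | h)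
    · exact hU (-8) (by norm_num)
    · exact hd 16 (-8) (by norm_num) y h
    · exact hd 8 (-8) (by norm_num) y h
    · exact hd 0 (-8) (by norm_num) y h

end

/-- The points of the action. -/
def fiveSet (u : leechLattice) : Set leechLattice :=
  {x : leechLattice | sqNorm (x : GolayPt → ℤ) = 32 ∧
    dotInt (u : GolayPt → ℤ) (x : GolayPt → ℤ) = -16}

theorem fiveSet_orbits {u x : leechLattice} (hu : nrm u = 48) (hx : x ∈ fiveSet u) :
    ∃ y₁ ∈ fiveSet u, ∃ y₂ ∈ fiveSet u, ∃ y₃ ∈ fiveSet u, ∃ y₄ ∈ fiveSet u,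
      (MulAction.orbit ↥(MulAction.stabilizer Co0 u ⊓ MulAction.stabilizer Co0 x) y₁).ncard = 352 ∧
      (MulAction.orbit ↥(MulAction.stabilizer Co0 u ⊓ MulAction.stabilizer Co0 x) y₂).ncard =
        1100 ∧
      (MulAction.orbit ↥(MulAction.stabilizer Co0 u ⊓ MulAction.stabilizer Co0 x) y₃).ncard =
        4125 ∧
      (MulAction.orbit ↥(MulAction.stabilizer Co0 u ⊓ MulAction.stabilizer Co0 x) y₄).ncard =
        5600 ∧
      fiveSet u = {x} ∪
        MulAction.orbit ↥(MulAction.stabilizer Co0 u ⊓ MulAction.stabilizer Co0 x) y₁ ∪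
        MulAction.orbit ↥(MulAction.stabilizer Co0 u ⊓ MulAction.stabilizer Co0 x) y₂ ∪
        MulAction.orbit ↥(MulAction.stabilizer Co0 u ⊓ MulAction.stabilizer Co0 x) y₃ ∪
        MulAction.orbit ↥(MulAction.stabilizer Co0 u ⊓ MulAction.stabilizer Co0 x) y₄ := by
  obtain ⟨x32, xu⟩ := hx
  have xu' : ip x (-u) = 16 := by
    rw [ip_neg_right, ip_comm, show ip u x = -16 from xu]; norm_num
  obtain ⟨z, z1, z2, z3⟩ := exists_hs_point x (-u) x32 (by rw [nrm_neg, hu]) xu'
  obtain ⟨g, g1, g2⟩ := exists_pair_base x z x32 z1 z2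
  set v := g • (-u) with hv
  have hn : nrm v = 48 := by rw [hv, nrm_smul, nrm_neg, hu]
  have hu1 : ip Spor.leechU v = 16 := by rw [hv, ← g1, ip_smul, xu']
  have hu2 : ip Spor.leechU' v = 24 := by rw [hv, ← g2, ip_smul, z3]
  have hmem : ∀ y, y ∈ fiveSet u ↔ g • y ∈ fivePts v := fun y => by
    rw [fivePts, Set.mem_setOf_eq, nrm_smul, hv, ip_smul, ip_comm (-u) y, ip_neg_right,
      ip_comm y u]
    constructor
    · rintro ⟨a, b⟩; exact ⟨a, by rw [show ip u y = -16 from b]; norm_num⟩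
    · rintro ⟨a, b⟩; exact ⟨a, show ip u y = -16 by omega⟩
  have key : ∀ k, (k = 16 ∨ k = 8 ∨ k = 0 ∨ k = -8) → ∀ y, g • y ∈ fiveK v k → ∀ y',
      y' ∈ MulAction.orbit ↥(MulAction.stabilizer Co0 u ⊓ MulAction.stabilizer Co0 x) y ↔
        g • y' ∈ fiveK v k := by
    intro k hk y hy y'
    rw [MulAction.mem_orbit_iff]
    constructor
    · rintro ⟨⟨h, hh⟩, rfl⟩
      obtain ⟨h1, h2⟩ := hh
      obtain ⟨⟨a, b⟩, c⟩ := hy
      have k1 : (g * h * g⁻¹) • v = v := by
        rw [hv, mul_smul, mul_smul, inv_smul_smul, co0_map_neg h,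
          MulAction.mem_stabilizer_iff.1 h1]
      have k2 : (g * h * g⁻¹) • Spor.leechU = Spor.leechU := by
        rw [← g1, mul_smul, mul_smul, inv_smul_smul, MulAction.mem_stabilizer_iff.1 h2]
      have e : g • ((⟨h, ⟨h1, h2⟩⟩ : ↥(MulAction.stabilizer Co0 u ⊓ MulAction.stabilizer Co0 x)) •
          y) = (g * h * g⁻¹) • (g • y) := by
        rw [mul_smul, mul_smul, inv_smul_smul]; rfl
      rw [e]
      refine ⟨⟨?_, ?_⟩, ?_⟩
      · rw [nrm_smul, a]
      · rw [← k1, ip_smul, b]
      · rw [← k2, ip_smul, c]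
    · intro hy'
      obtain ⟨h, h1, h2, h3⟩ := five_trans hn hu1 hu2 hk hy hy'
      refine ⟨⟨g⁻¹ * h * g, ⟨?_, ?_⟩⟩, ?_⟩
      · show (g⁻¹ * h * g) • u = u
        have : (g⁻¹ * h * g) • (-u) = -u := by
          rw [mul_smul, mul_smul, ← hv, h2, hv, inv_smul_smul]
        rwa [co0_map_neg, neg_inj] at this
      · show (g⁻¹ * h * g) • x = x
        rw [mul_smul, mul_smul, g1, h1, ← g1, inv_smul_smul]
      · show (g⁻¹ * h * g) • y = y'
        rw [mul_smul, mul_smul, h3, inv_smul_smul]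
  have pick : ∀ k n, n ≠ 0 → (fiveK v k).ncard = n → (k = 16 ∨ k = 8 ∨ k = 0 ∨ k = -8) →
      ∃ y ∈ fiveSet u,
        (MulAction.orbit ↥(MulAction.stabilizer Co0 u ⊓ MulAction.stabilizer Co0 x) y).ncard = n ∧
        ∀ y', y' ∈ MulAction.orbit ↥(MulAction.stabilizer Co0 u ⊓ MulAction.stabilizer Co0 x) y ↔
          g • y' ∈ fiveK v k := by
    intro k n h0 hc hk
    obtain ⟨w, hw⟩ := Set.nonempty_of_ncard_ne_zero (s := fiveK v k) (by omega)
    have hw' : g • g⁻¹ • w ∈ fiveK v k := by rw [smul_inv_smul]; exact hw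
    refine ⟨g⁻¹ • w, (hmem _).2 hw'.1, ?_, key k hk _ hw'⟩
    rw [ncard_smul_set g (key k hk _ hw'), hc]
  obtain ⟨y₁, m1, c1, o1⟩ := pick (-8) 352 (by norm_num) (ncard_fiveKm8 hn hu1 hu2) (by simp)
  obtain ⟨y₂, m2, c2, o2⟩ := pick 16 1100 (by norm_num) (ncard_fiveK16 hn hu1 hu2) (by simp)
  obtain ⟨y₃, m3, c3, o3⟩ := pick 0 4125 (by norm_num) (ncard_fiveK0 hn hu1 hu2) (by simp)
  obtain ⟨y₄, m4, c4, o4⟩ := pick 8 5600 (by norm_num) (ncard_fiveK8 hn hu1 hu2) (by simp)
  refine ⟨y₁, m1, y₂, m2, y₃, m3, y₄, m4, c1, c2, c3, c4, ?_⟩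
  ext y
  rw [hmem, five_cover hn hu1 hu2]
  simp only [Set.mem_union, Set.mem_singleton_iff, o1, o2, o3, o4]
  rw [← g1, smul_left_cancel_iff]
  tauto

end CfsgLib.LeechTriples
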